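import Cfsg.Agent.H9.Misc3

/-! # Alternating sums over normal chains of `p`-subgroups -/

namespace H9
open Cfsg H3 MonoidAlgebra Subgroup
open scoped ComplexConjugate Pointwise
set_option linter.style.haveILetI false
set_option linter.unusedSectionVars false

variable {p : ℕ} {M : Ideal AlgInt} {G H K : Type*} [Group G] [Finite G] [Group H] [Finite H] [Group K] [Finite K]
  [Fact p.Prime]

section chain
variable {s : Finset (Subgroup G)} {u g : G}

/-- Chains of nontrivial `p`-subgroups normalising each other. -/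
structure PCh (p : ℕ) (s : Finset (Subgroup G)) : Prop where
  tot : ∀ Q ∈ s, ∀ R ∈ s, Q ≤ R ∨ R ≤ Q
  pg : ∀ Q ∈ s, Q ≠ ⊥ ∧ IsPGroup p Q
  nr : ∀ Q ∈ s, ∀ R ∈ s, R ≤ nrm Q

abbrev chN (s : Finset (Subgroup G)) : Subgroup G := ⨅ Q ∈ s, nrm Q

theorem mem_chN : g ∈ chN s ↔ ∀ Q ∈ s, g ∈ nrm Q := by simp only [chN, Subgroup.mem_iInf]

open Classical in
noncomputable def chA (u : G) (s : Finset (Subgroup G)) : Subgroup G := (s.filter (u ∉ ·)).sup id
def chX (u : G) (s : Finset (Subgroup G)) : Subgroup G := s.sup id ⊔ zpowers u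
def chR' (u : G) (A X : Subgroup G) : Subgroup G := sInf {Y | A ≤ Y ∧ u ∈ Y ∧ X ≤ nrm Y}
noncomputable def chR (u : G) (s : Finset (Subgroup G)) : Subgroup G := chR' u (chA u s) (chX u s)

theorem mem_nrm_fsup (h : ∀ Q ∈ s, g ∈ nrm Q) : g ∈ nrm (s.sup id) :=
  Finset.sup_induction (p := fun Y : Subgroup G => g ∈ nrm Y) (by rw [nrm_bot]; trivial)
    (fun a ha b hb => normalizer_inf_normalizer_le_normalizer_sup a b ⟨ha, hb⟩) h

theorem chR'_le {A X Y : Subgroup G} (h1 : A ≤ Y) (h2 : u ∈ Y) (h3 : X ≤ nrm Y) : chR' u A X ≤ Y :=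
  sInf_le ⟨h1, h2, h3⟩
theorem le_chR' (u : G) (A X : Subgroup G) : A ≤ chR' u A X := le_sInf fun _ h => h.1
theorem mem_chR' (u : G) (A X : Subgroup G) : u ∈ chR' u A X := Subgroup.mem_sInf.2 fun _ h => h.2.1
theorem le_nrm_chR' (u : G) (A X : Subgroup G) : X ≤ nrm (chR' u A X) := fun x hx =>
  mem_nrm_of_conj fun y hy => Subgroup.mem_sInf.2 fun Y h =>
    (mem_normalizer_iff.1 (h.2.2 hx) y).1 (Subgroup.mem_sInf.1 hy Y h)

theorem mem_nrm_chR' {A X : Subgroup G} (h1 : g ∈ nrm A) (h2 : g ∈ cen1 u) (h3 : g ∈ nrm X) :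
    g ∈ nrm (chR' u A X) := by
  refine mem_nrm_of_conj fun y hy => ?_
  refine chR'_le (Y := (chR' u A X).comap (MulAut.conj g).toMonoidHom) (fun a ha => ?_) ?_ (fun x hx => ?_) hy
  · exact le_chR' u A X ((mem_normalizer_iff.1 h1 a).1 ha)
  · change g * u * g⁻¹ ∈ chR' u A X
    rw [mem_cen1.1 h2]; exact mem_chR' u A X
  · refine mem_nrm_of_conj fun z hz => ?_
    have := (mem_normalizer_iff.1 (le_nrm_chR' u A X ((mem_normalizer_iff.1 h3 x).1 hx)) _).1 hz
    change g * (x * z * x⁻¹) * g⁻¹ ∈ chR' u A X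
    convert this using 1
    simp [mul_assoc]

theorem mem_chR : u ∈ chR u s := mem_chR' _ _ _

theorem chN_inf_le (u : G) (s : Finset (Subgroup G)) : chN s ⊓ cen1 u ≤ nrm (chR u s) := by
  classical
  rintro g ⟨h1, h2⟩
  have h1 := mem_chN.1 h1
  refine mem_nrm_chR' (mem_nrm_fsup fun Q hQ => h1 Q (Finset.mem_filter.1 hQ).1) h2
    (normalizer_inf_normalizer_le_normalizer_sup _ _ ⟨mem_nrm_fsup h1, mem_nrm_of_conj ?_⟩)
  rintro _ ⟨k, rfl⟩
  exact ⟨k, by simp only [← conj_zpow, mem_cen1.1 h2]⟩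

theorem le_chA {Q : Subgroup G} (hQ : Q ∈ s) (h : u ∉ Q) : Q ≤ chA u s := by
  classical
  exact Finset.le_sup (f := id) (Finset.mem_filter.2 ⟨hQ, h⟩)

theorem chA_le {Y : Subgroup G} (h : ∀ Q ∈ s, u ∉ Q → Q ≤ Y) : chA u s ≤ Y := by
  classical
  exact Finset.sup_le fun Q hQ => h Q (Finset.mem_filter.1 hQ).1 (Finset.mem_filter.1 hQ).2

theorem le_chX {Q : Subgroup G} (hQ : Q ∈ s) : Q ≤ chX u s := (Finset.le_sup (f := id) hQ).trans le_sup_left
theorem mem_chX : u ∈ chX u s := mem_sup_right (mem_zpowers u)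
theorem chX_le {Y : Subgroup G} (h : ∀ Q ∈ s, Q ≤ Y) (hu : u ∈ Y) : chX u s ≤ Y :=
  sup_le (Finset.sup_le h) (zpowers_le.2 hu)
theorem chR_le_chX : chR u s ≤ chX u s := chR'_le (chA_le fun _ h _ => le_chX h) mem_chX le_normalizer

theorem PCh.chX_nrm (h : PCh p s) (hu : u ∈ chN s) {Q : Subgroup G} (hQ : Q ∈ s) : chX u s ≤ nrm Q :=
  chX_le (h.nr Q hQ) (mem_chN.1 hu Q hQ)

theorem PCh.chR_le' (h : PCh p s) (hu : u ∈ chN s) {Q : Subgroup G} (hQ : Q ∈ s) (huQ : u ∈ Q) : chR u s ≤ Q :=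
  chR'_le (chA_le fun R hR h' => (h.tot R hR Q hQ).resolve_right fun e => h' (e huQ)) huQ (h.chX_nrm hu hQ)

theorem PCh.sup_mem (h : PCh p s) : s.sup id ∈ s ∨ s.sup id = ⊥ :=
  Finset.sup_induction (p := fun Y : Subgroup G => Y ∈ s ∨ Y = ⊥) (Or.inr rfl) (by
    rintro a (ha | rfl) b (hb | rfl)
    · rcases h.tot a ha b hb with e | e
      · rw [sup_eq_right.2 e]; exact Or.inl hb
      · rw [sup_eq_left.2 e]; exact Or.inl ha
    · simpa using Or.inl ha
    · simpa using Or.inl hb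
    · simp) fun _ h => Or.inl h

theorem PCh.isPGroup_chX (h : PCh p s) (hu : u ∈ chN s) (hp : IsPElt p u) : IsPGroup p (chX u s) := by
  rw [chX, sup_comm]
  refine isPGroup_sup_of_le_nrm hp.isPGroup_zpowers ?_ (zpowers_le.2 (mem_nrm_fsup (mem_chN.1 hu)))
  rcases h.sup_mem with e | e
  · exact (h.pg _ e).2
  · rw [e]; exact IsPGroup.of_bot

theorem PCh.mono (h : PCh p s) {t : Finset (Subgroup G)} (ht : t ⊆ s) : PCh p t :=
  ⟨fun Q hQ R hR => h.tot Q (ht hQ) R (ht hR), fun Q hQ => h.pg Q (ht hQ), fun Q hQ R hR => h.nr Q (ht hQ) R (ht hR)⟩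

open Classical in
theorem PCh.insert (h : PCh p s) (hu : u ∈ chN s) (hp : IsPElt p u) (h1 : u ≠ 1) : PCh p (insert (chR u s) s) := by
  have t : ∀ Q ∈ s, chR u s ≤ Q ∨ Q ≤ chR u s := fun Q hQ => by
    by_cases e : u ∈ Q
    · exact Or.inl (h.chR_le' hu hQ e)
    · exact Or.inr ((le_chA hQ e).trans (le_chR' _ _ _))
  refine ⟨?_, ?_, ?_⟩ <;> simp only [Finset.forall_mem_insert]
  · exact ⟨⟨Or.inl le_rfl, t⟩, fun Q hQ => ⟨(t Q hQ).symm, h.tot Q hQ⟩⟩
  · exact ⟨⟨fun e => h1 (by have := mem_chR (u := u) (s := s); rwa [e] at this),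
      (h.isPGroup_chX hu hp).to_le chR_le_chX⟩, h.pg⟩
  · exact ⟨⟨le_normalizer, fun Q hQ => (le_chX hQ).trans (le_nrm_chR' _ _ _)⟩,
      fun Q hQ => ⟨chR_le_chX.trans (h.chX_nrm hu hQ), h.nr Q hQ⟩⟩

open Classical in
theorem chR_insert : chR u (insert (chR u s) s) = chR u s := by
  have e1 : chA u (insert (chR u s) s) = chA u s := by
    rw [chA, Finset.filter_insert, if_neg (not_not.2 mem_chR)]; rfl
  have e2 : chX u (insert (chR u s) s) = chX u s :=
    le_antisymm (chX_le (by simp only [Finset.forall_mem_insert]; exact ⟨chR_le_chX, fun _ => le_chX⟩) mem_chX)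
      (chX_le (fun _ h => le_chX (Finset.mem_insert_of_mem h)) mem_chX)
  rw [chR, e1, e2]; rfl

theorem exists_normal_coatom {X Y : Subgroup G} (hX : IsPGroup p X) (h : Y < X) : ∃ Z, Y ≤ Z ∧ Z < X ∧ X ≤ nrm Z := by
  obtain ⟨Z, hZ, hm⟩ := Set.Finite.exists_maximal (Set.toFinite {Z | Y ≤ Z ∧ Z < X}) ⟨Y, le_rfl, h⟩
  refine ⟨Z, hZ.1, hZ.2, ?_⟩
  by_contra hn
  have := lt_inf_nrm hX hZ.2
  exact this.not_ge (hm ⟨hZ.1.trans this.le, lt_of_le_of_ne inf_le_left fun e => hn (e ▸ inf_le_right)⟩ this.le)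

open Classical in
theorem PCh.chR_erase (h : PCh p s) (hu : u ∈ chN s) (hp : IsPElt p u) : chR u (s.erase (chR u s)) = chR u s := by
  have e1 : chA u (s.erase (chR u s)) = chA u s :=
    le_antisymm (chA_le fun _ h => le_chA (Finset.mem_of_mem_erase h)) (chA_le fun Q h h' =>
      le_chA (Finset.mem_erase.2 ⟨fun e => h' (e ▸ mem_chR), h⟩) h')
  have l : chX u (s.erase (chR u s)) ≤ chX u s := chX_le (fun _ h => le_chX (Finset.mem_of_mem_erase h)) mem_chX
  have e2 : chX u (s.erase (chR u s)) = chX u s := by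
    by_contra hn
    obtain ⟨Z, h1, h2, h3⟩ := exists_normal_coatom (h.isPGroup_chX hu hp) (lt_of_le_of_ne l hn)
    have r : chR u s ≤ Z := chR'_le (e1 ▸ (chA_le fun _ h _ => le_chX h).trans h1) (h1 mem_chX) h3
    refine h2.not_ge (chX_le (fun Q hQ => ?_) (h1 mem_chX))
    by_cases e : Q = chR u s
    · exact e ▸ r
    · exact (le_chX (Finset.mem_erase.2 ⟨e, hQ⟩)).trans h1
  rw [chR, e1, e2]; rfl

open Classical in
theorem chN_insert (R : Subgroup G) : chN (insert R s) = nrm R ⊓ chN s := by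
  ext g; simp only [mem_chN, Finset.forall_mem_insert, Subgroup.mem_inf]

open Classical in
theorem chN_insert_inf : chN (insert (chR u s) s) ⊓ cen1 u = chN s ⊓ cen1 u := by
  rw [chN_insert, inf_assoc, inf_eq_right.2 (chN_inf_le u s)]

open Classical in
theorem sum_chain_eq_zero [Fintype (Subgroup G)] (hp : IsPElt p u) (h1 : u ≠ 1) (Φ : Subgroup G → ℂ) :
    ∑ s : Finset (Subgroup G) with PCh p s ∧ u ∈ chN s, (-1) ^ s.card * Φ (chN s ⊓ cen1 u) = 0 := by
  refine Finset.sum_involution (fun s _ => if chR u s ∈ s then s.erase (chR u s) else insert (chR u s) s)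
    (fun s hs => ?_) (fun s hs _ => ?_) (fun s hs => ?_) (fun s hs => ?_)
  all_goals obtain ⟨h, hu⟩ := (Finset.mem_filter.1 hs).2
  · split_ifs with e
    · have := chN_insert_inf (u := u) (s := s.erase (chR u s))
      rw [h.chR_erase hu hp, Finset.insert_erase e] at this
      rw [this, ← Finset.card_erase_add_one e]; ring
    · rw [chN_insert_inf, Finset.card_insert_of_notMem e]; ring
  · split_ifs with e
    · exact fun e' => Finset.notMem_erase (chR u s) s (by rwa [e'])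
    · exact fun e' => e (by have := Finset.mem_insert_self (chR u s) s; rwa [e'] at this)
  · refine Finset.mem_filter.2 ⟨Finset.mem_univ _, ?_⟩
    split_ifs with e
    · exact ⟨h.mono (Finset.erase_subset _ _), mem_chN.2 fun Q hQ => mem_chN.1 hu Q (Finset.mem_of_mem_erase hQ)⟩
    · exact ⟨h.insert hu hp h1, by rw [chN_insert]; exact ⟨le_normalizer mem_chR, hu⟩⟩
  · by_cases e : chR u s ∈ s
    · simp only [if_pos e, h.chR_erase hu hp, Finset.notMem_erase, if_false, Finset.insert_erase e]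
    · simp only [if_neg e, chR_insert, Finset.mem_insert_self, if_true, Finset.erase_insert e]

end chain

variable [PMod p M]

open Classical in
/-- Diagonal sum over the characters in the blocks cut out by `e`. -/
noncomputable def F0 (e : (RF M)[G]) (x : G) : ℂ :=
  ∑ χ : IrrCharacter G with (blk M χ).lam e ≠ 0, χ.1 x * conj (χ.1 x)

open Classical in
theorem F0_eq (e : (RF M)[G]) (x : G) :
    F0 e x = ∑ B : Bl M G with B.lam e ≠ 0, ∑ χ with χ ∈ B.1, χ.1 x * conj (χ.1 x) := by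
  rw [F0, Finset.sum_filter, sum_irr_eq_sum_blocks (M := M), Finset.sum_filter]
  refine Finset.sum_congr rfl fun B _ => ?_
  split_ifs with h
  · exact Finset.sum_congr rfl fun χ hχ => by rw [blk_eq_of_mem (Finset.mem_filter.1 hχ).2, if_pos h]
  · exact Finset.sum_eq_zero fun χ hχ => by rw [blk_eq_of_mem (Finset.mem_filter.1 hχ).2, if_neg h]

theorem F0_section {e : (RF M)[G]} (he : e ∈ Zc (RF M) G) {u : G} (hu : IsPElt p u) {y : cen1 u}
    (hy : IsPRegular p y) : F0 e (u * y) = F0 (pull (RF M) (cen1 u).subtype e) y := by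
  classical
  rw [F0_eq, F0_eq, Finset.sum_congr rfl fun B _ => sum_block_section hu B hy hy]
  simp only [Finset.sum_filter]
  rw [Finset.sum_congr rfl fun B _ => Finset.ite_sum_zero _ _ _, Finset.sum_comm]
  refine Finset.sum_congr rfl fun c _ => ?_
  obtain ⟨B, hB⟩ := exists_ind_centralizer_elt hu c
  rw [Finset.sum_eq_single B (fun B' _ h => by rw [if_neg fun h' : Ind _ c B' => h (h'.unique hB)]; simp)
    (by simp), if_pos hB, hB e he]

theorem F0_congr {ψ : H →* G} {ψ' : K →* G} (h : Function.Injective ψ) (h' : Function.Injective ψ')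
    (hr : ψ.range = ψ'.range) {e : (RF M)[G]} (he : e ∈ Zc (RF M) G) {y : H} {y' : K} (hy : ψ y = ψ' y') :
    F0 (pull (RF M) ψ e) y = F0 (pull (RF M) ψ' e) y' := by
  classical
  obtain ⟨f, hf⟩ := exists_equiv_of_range h h' hr
  obtain rfl : f y = y' := h' (by rw [hf, hy])
  rw [F0, F0, Finset.sum_filter, Finset.sum_filter, ← (irrEquiv f).sum_comp]
  refine Finset.sum_congr rfl fun χ _ => ?_
  have : (blk M (irrEquiv f χ)).lam (pull (RF M) ψ e) = (blk M χ).lam (pull (RF M) ψ' e) := by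
    refine (lam_irrComp χ f (pull_mem_Zc ψ he)).trans ?_
    rw [push_equiv_eq_pull, pull_pull]
    rw [show ψ ∘ f.symm.toMonoidHom = ψ' from funext fun k => by rw [← f.apply_symm_apply k, hf]; simp]
  rw [this]; rfl

open Classical in
theorem sum_F0 [Fintype G] (e : (RF M)[G]) : ∑ x with ¬ IsPRegular p x, F0 e x = Nat.card G *
    ((Nat.card {χ | (blk M χ).lam e ≠ 0} : ℂ) - blockRank p {χ | (blk M χ).lam e ≠ 0}) := by
  have h1 : (blockRank p {χ | (blk M χ).lam e ≠ 0} : ℂ) = _ := finrank_span_eq_of_idem _ (regLin p G)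
    (fun χ hχ => by
      have := Bl.blockPart_reg_irr (p := p) (mem_blk (M := M) χ)
      rw [regLin_apply, ← this, blockPart_blockPart _ _ (isClassFunction_pRegularPart χ.2.isClassFunction),
        Set.inter_eq_left.2]
      exact fun ψ hψ => by rwa [Set.mem_ofPred_eq, blk_eq_of_mem hψ]) fun χ _ => pRegularPart_idem _
  rw [h1, Nat.card_eq_fintype_card (α := {χ | _}), Fintype.card_subtype, Finset.card_eq_sum_ones, Nat.cast_sum,
    ← Finset.sum_sub_distrib, Finset.mul_sum]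
  simp only [F0]
  rw [Finset.sum_comm]
  refine Finset.sum_congr rfl fun χ _ => ?_
  rw [Nat.cast_one, ← χ.2.inner_self, mul_sub, card_mul_inner, card_mul_inner, ← Finset.sum_sub_distrib,
    Finset.sum_filter]
  exact Finset.sum_congr rfl fun x _ => by rw [regLin_apply, pRegularPart_apply]; split_ifs <;> simp

open Classical in
noncomputable def Psi (e : (RF M)[G]) (y : G) (L : Subgroup G) : ℂ :=
  if h : y ∈ L then F0 (pull (RF M) L.subtype e) ⟨y, h⟩ else 0

theorem F0_eq_Psi {e : (RF M)[G]} (he : e ∈ Zc (RF M) G) (N : Subgroup G) (x : N) :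
    F0 (pull (RF M) N.subtype e) x = Psi e (pq p x.1) (N ⊓ cen1 (pp p x.1)) := by
  have m : pq p x ∈ cen1 (pp p x) := mem_cen1.2 (by rw [← (commute_pp_pq x).eq, mul_inv_cancel_right])
  have := F0_section (pull_mem_Zc N.subtype he) (isPElt_pp (p := p) x) (y := ⟨_, m⟩)
    (isPRegular_coe.1 (isPRegular_pq x))
  rw [pp_mul_pq, pull_pull] at this
  rw [this, Psi, dif_pos ⟨pq_mem x.2, mem_cen1.2 (by rw [← (commute_pp_pq x.1).eq, mul_inv_cancel_right])⟩]
  refine F0_congr (ψ := N.subtype.comp (cen1 (pp p x)).subtype) (N.subtype_injective.comp (subtype_injective _))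
    (subtype_injective _) ?_ he (pq_coe x).symm
  ext g
  simp only [range_subtype, MonoidHom.mem_range, Subgroup.mem_inf, mem_cen1, pp_coe]
  constructor
  · rintro ⟨⟨y, hy⟩, rfl⟩
    exact ⟨y.2, congrArg Subtype.val (mem_cen1.1 hy)⟩
  · rintro ⟨h1, h2⟩
    exact ⟨⟨⟨g, h1⟩, mem_cen1.2 (Subtype.ext h2)⟩, rfl⟩

open Classical in
theorem sum_F0_pull [Fintype G] {e : (RF M)[G]} (he : e ∈ Zc (RF M) G) (N : Subgroup G) :
    (Nat.card N : ℂ) * ((Nat.card {χ | (blk M χ).lam (pull (RF M) N.subtype e) ≠ 0} : ℂ) -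
      blockRank p {χ | (blk M χ).lam (pull (RF M) N.subtype e) ≠ 0}) =
    ∑ x with ¬ IsPRegular p x, if pp p x ∈ N then Psi e (pq p x) (N ⊓ cen1 (pp p x)) else 0 := by
  rw [← sum_F0, Finset.sum_filter, Finset.sum_filter]
  refine Finset.sum_of_injOn (fun x : N => (x : G)) Subtype.val_injective.injOn (fun _ _ => Finset.mem_univ _)
    (fun x _ hx => ?_) fun x _ => ?_
  · have : x ∉ N := fun h => hx ⟨⟨x, h⟩, by simp, rfl⟩
    split_ifs with h1 h2
    · rfl
    · rw [Psi, dif_neg fun h => this (pp_mul_pq (p := p) x ▸ mul_mem h2 h.1)]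
    · rfl
  · rw [isPRegular_coe, if_pos (pp_mem x.2), F0_eq_Psi he]

open Classical in
theorem sum_chain [Fintype (Subgroup G)] {e : (RF M)[G]} (he : e ∈ Zc (RF M) G) :
    ∑ s : Finset (Subgroup G) with PCh p s, (-1) ^ s.card * ((Nat.card (chN s) : ℂ) *
      ((Nat.card {χ | (blk M χ).lam (pull (RF M) (chN s).subtype e) ≠ 0} : ℂ) -
        blockRank p {χ | (blk M χ).lam (pull (RF M) (chN s).subtype e) ≠ 0})) = 0 := by
  haveI := Fintype.ofFinite G
  simp only [sum_F0_pull he, Finset.mul_sum]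
  rw [Finset.sum_comm]
  refine Finset.sum_eq_zero fun x hx => ?_
  refine Eq.trans ?_ (sum_chain_eq_zero (isPElt_pp (p := p) x)
    (fun h => (Finset.mem_filter.1 hx).2 (pp_eq_one_iff.1 h)) (Psi e (pq p x)))
  rw [← Finset.filter_filter, Finset.sum_filter (p := fun s => pp p x ∈ chN s)]
  simp only [mul_ite, mul_zero]

end H9
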