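import Cfsg.Agent.H9.Pr1
import Cfsg.Agent.H9.Klein
import Cfsg.Agent.H9.N1
import Cfsg.Agent.H1.Two4

/-! Dihedral Sylow 2-subgroups: fusion in the cyclic subgroup of index two. -/

set_option autoImplicit false
set_option linter.style.haveILetI false
set_option linter.unusedSectionVars false

namespace H9
open Cfsg H3 MonoidAlgebra Subgroup Module
open scoped ComplexConjugate Pointwise

variable {G : Type*} [Group G] [Finite G] {P : Subgroup G} {a u v x g : G} {k : ℕ}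

theorem cen_of_odd_of_cyc {U : Subgroup G} [IsCyclic U] (hU : IsPGroup 2 U) (hg : g ∈ nrm U)
    (ho : IsPRegular 2 g) (hu : u ∈ U) : g * u * g⁻¹ = u := by
  obtain ⟨m, hm⟩ := hU.exists_card_eq
  have h1 : orderOf (U.normalizerMonoidHom ⟨g, hg⟩) ∣ 2 ^ m := by
    refine (_root_.orderOf_dvd_natCard _).trans ?_
    rw [IsCyclic.card_mulAut, hm]
    rcases m with _ | m
    · simp
    · rw [Nat.totient_prime_pow Nat.prime_two m.succ_pos]; simp [pow_succ]
  have h2 : orderOf (U.normalizerMonoidHom ⟨g, hg⟩) ∣ orderOf g :=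
    (orderOf_map_dvd _ _).trans (by rw [orderOf_mk])
  have h3 : U.normalizerMonoidHom ⟨g, hg⟩ = 1 := orderOf_eq_one_iff.1
    (Nat.eq_one_of_dvd_coprimes ((not_dvd_iff_coprime.1 ho).symm.pow_left m) h1 h2)
  rw [← MonoidHom.mem_ker, normalizerMonoidHom_ker] at h3
  have := mem_centralizer_iff.1 (mem_subgroupOf.1 h3) u hu
  rw [← this, mul_inv_cancel_right]

/-- A dihedral Sylow 2-subgroup of order `2 ^ (k + 3)`. -/
structure DH (P : Subgroup G) (a : G) (k : ℕ) : Prop where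
  syl : H1.IsSylowIn 2 P ⊤
  dih : H1B.Dih P a k

namespace DH
variable (h : DH P a k)
include h

theorem mx : H1B.MX P a 1 k := h.dih.1

theorem ord : orderOf a = 2 ^ (k + 2) := h.mx.orda

theorem cardA : Nat.card (zpowers a) = 2 ^ (k + 2) := by rw [Nat.card_zpowers, h.ord]

theorem le : zpowers a ≤ P := h.mx.le

theorem elt (hu : u ∈ zpowers a) : IsPElt 2 u := isPElt_of_mem h.syl.isPGroup (h.le hu)

theorem mem_of_sq (hu : u ∈ P) (h2 : u * u ≠ 1) : u ∈ zpowers a := by_contra fun e => h2 (h.dih.2 u hu e)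

theorem conj_out (hx : x ∈ P) (hxa : x ∉ zpowers a) (hu : u ∈ zpowers a) : x * u * x⁻¹ = u⁻¹ := by
  have h1 := h.dih.2 x hx hxa
  have h2 := h.dih.2 (x * u) (mul_mem hx (h.le hu)) fun e => hxa (by simpa using mul_mem e (inv_mem hu))
  rw [inv_eq_of_mul_eq_one_right h1, eq_inv_iff_mul_eq_one, ← h2]; simp only [mul_assoc]

theorem conj_cases (hx : x ∈ P) (hu : u ∈ zpowers a) : x * u * x⁻¹ = u ∨ x * u * x⁻¹ = u⁻¹ := by
  by_cases hxa : x ∈ zpowers a
  · left; rw [(H1B.zp_comm hxa hu).eq, mul_inv_cancel_right]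
  · exact .inr (h.conj_out hx hxa hu)

theorem le_cen1 (hu : u ∈ zpowers a) : zpowers a ≤ cen1 u := fun _ hx =>
  mem_centralizer_singleton_iff.2 (H1B.zp_comm hx hu).eq

theorem sylA (hu : u ∈ zpowers a) (h2 : u * u ≠ 1) : H1.IsSylowIn 2 (zpowers a) (cen1 u) := by
  refine H1.isSylowIn_of_maximal (h.le_cen1 hu) (h.syl.isPGroup.to_le h.le) fun Q hQ hQC hAQ => ?_
  obtain ⟨g, -, hg⟩ := h.syl.exists_conj_le hQ le_top
  have hg' := H1.conj_smul_le_iff.1 hg
  have e : g * u * g⁻¹ * (g * u * g⁻¹) ≠ 1 := by rw [conj_mul]; simpa using h2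
  have : MulAut.conj g • Q ≤ zpowers a := H1.conj_smul_le_iff.2 fun q hq => by_contra fun n => e (by
    have := h.conj_out (hg' q hq) n (h.mem_of_sq (hg' u (hAQ hu)) e)
    rw [show g * q * g⁻¹ * (g * u * g⁻¹) * (g * q * g⁻¹)⁻¹ = g * (q * u * q⁻¹) * g⁻¹ by group,
      mem_cen1.1 (hQC hq)] at this
    exact mul_eq_one_iff_eq_inv.2 this)
  exact (eq_of_le_of_card_ge hAQ ((card_le_of_le this).trans' (by rw [H1.card_conj_smul]))).symm

theorem zp_eq (hu : u ∈ zpowers a) (hv : v ∈ zpowers a) (e : orderOf u = orderOf v) :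
    zpowers u = zpowers v := by
  obtain ⟨i, -, hi⟩ := H1B.le_zp_eq h.ord (zpowers_le.2 hu)
  obtain ⟨j, -, hj⟩ := H1B.le_zp_eq h.ord (zpowers_le.2 hv)
  have e' : Nat.card (zpowers u) = Nat.card (zpowers v) := by rw [Nat.card_zpowers, Nat.card_zpowers, e]
  rcases le_total i j with l | l
  · exact (eq_of_le_of_card_ge (by rw [hi, hj]; exact H1B.zp_pow_le_pow a (pow_dvd_pow 2 l)) e'.le).symm
  · exact eq_of_le_of_card_ge (by rw [hi, hj]; exact H1B.zp_pow_le_pow a (pow_dvd_pow 2 l)) e'.ge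

theorem fuse (hu : u ∈ zpowers a) (hv : v ∈ zpowers a) (e : IsConj u v) : v = u ∨ v = u⁻¹ := by
  obtain ⟨g, rfl⟩ := isConj_iff.1 e
  have hg : g ∈ nrm (zpowers u) := by
    rw [← H1.conj_smul_eq_self_iff, conj_smul_zpowers]
    exact h.zp_eq hv hu (orderOf_conj' _ _)
  have hU : IsPGroup 2 (zpowers u) := (h.elt hu).isPGroup_zpowers
  have h1 := cen_of_odd_of_cyc hU (pq_mem (p := 2) hg) (isPRegular_pq g) (mem_zpowers u)
  obtain ⟨c, hc, hc'⟩ := exists_conj_mem_sylow (h.syl.of_le (h.mx.le_nrm_of_le (zpowers_le.2 hu)) le_top)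
    (isPElt_pp (p := 2) g) (pp_mem hg)
  have h2 : c * u * c⁻¹ ∈ zpowers a := zpowers_le.2 hu ((mem_normalizer_iff.1 hc u).1 (mem_zpowers u))
  have h3 : g * u * g⁻¹ = pp 2 g * u * (pp 2 g)⁻¹ := by
    conv_lhs => rw [← pp_mul_pq (p := 2) g]
    conv_rhs => rw [← h1]
    group
  rw [h3]
  refine (h.conj_cases hc' h2).imp (fun e => ?_) fun e => ?_
  · calc _ = c⁻¹ * (c * pp 2 g * c⁻¹ * (c * u * c⁻¹) * (c * pp 2 g * c⁻¹)⁻¹) * c := by group
      _ = _ := by rw [e]; group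
  · calc _ = c⁻¹ * (c * pp 2 g * c⁻¹ * (c * u * c⁻¹) * (c * pp 2 g * c⁻¹)⁻¹) * c := by group
      _ = _ := by rw [e]; group

theorem conj_inv (hu : u ∈ zpowers a) : IsConj u u⁻¹ :=
  let ⟨b, hb, hba⟩ := h.mx.ex
  isConj_iff.2 ⟨b, h.conj_out hb hba hu⟩

theorem P_le : P ≤ cen1 (a ^ 2 ^ (k + 1)) := fun _ hx =>
  mem_centralizer_singleton_iff.2 (h.mx.z_comm hx).eq

theorem sylz : H1.IsSylowIn 2 P (cen1 (a ^ 2 ^ (k + 1))) := h.syl.of_le h.P_le le_top

theorem npcz : HasNormalPComplement 2 (cen1 (a ^ 2 ^ (k + 1))) := by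
  have s := h.sylz
  have d : H1B.Dih ((P.subgroupOf (cen1 (a ^ 2 ^ (k + 1)))).map (cen1 (a ^ 2 ^ (k + 1))).subtype) a k := by
    rw [map_subgroupOf_eq_of_le h.P_le]; exact h.dih
  obtain ⟨a', ha'⟩ := d.comap (subtype_injective _)
  refine H1B.npc_of_central (t := selfC (a ^ 2 ^ (k + 1))) (S := P.subgroupOf _)
    ⟨le_top, s.isPGroup.comap_subtype, by rw [relIndex_top_right]; exact s.not_dvd⟩
    ((orderOf_coe _).symm.trans h.mx.z_ord)
    (mem_center_iff.2 fun x => Subtype.ext (mem_centralizer_singleton_iff.1 x.2)) (.inr (.inr ⟨_, _, ha'⟩))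

theorem npc (hu : u ∈ zpowers a) (h1 : u ≠ 1) : HasNormalPComplement 2 (cen1 u) := by
  by_cases h2 : u * u = 1
  · rw [(h.mx.eq_of_sq hu h2).resolve_left h1]; exact h.npcz
  · exact npc_of_isCyclic (h.sylA hu h2)

variable {M : Ideal AlgInt} [PMod 2 M]

open Classical in
theorem kap_val (hu : u ∈ zpowers a) (h1 : u ≠ 1) (hv : v ∈ zpowers a) :
    kap M u v = (2 ^ (k + 2) : ℕ) * ((if u = v then 1 else 0) + if u = v⁻¹ then 1 else 0) := by
  have e := kap_self_of_npc (M := M) (h.elt hu) (h.npc hu h1)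
  by_cases c : IsConj u v
  · rw [← (kap_cf u).of_isConj c, e]
    by_cases h2 : u * u = 1
    · have i : u⁻¹ = u := inv_eq_of_mul_eq_one_right h2
      have : v = u := (h.fuse hu hv c).elim id fun e => e.trans i
      rw [this, i, if_pos rfl, (h.mx.eq_of_sq hu h2).resolve_left h1, ← h.sylz.card_eq, h.mx.card]
      push_cast; ring
    · have i : u ≠ u⁻¹ := fun e => h2 (mul_eq_one_iff_eq_inv.2 e)
      rw [← (h.sylA hu h2).card_eq, h.cardA]
      rcases h.fuse hu hv c with rfl | rfl <;> simp [i]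
  · rw [kap_eq_zero (h.elt hu) (by rwa [pp_of_isPElt (h.elt hv)]), if_neg, if_neg]
    · simp
    · rintro rfl; exact c (h.conj_inv hv).symm
    · rintro rfl; exact c (IsConj.refl _)

theorem z_ne_zero {χ : IrrCharacter G} (hχ : χ ∈ (B0 M G).1) : χ.1 (a ^ 2 ^ (k + 1)) ≠ 0 := fun e => by
  have hm := maxP_B0 (M := M) h.syl
  have hu := h.mx.z_memP
  have hp := h.elt (pow_mem (mem_zpowers a) (2 ^ (k + 1)))
  refine hm.TS_ne_zero hu hχ (.inr h.mx.z_cen) ?_
  rw [TS, hm.sbl_B0 hu, TT_apply, ← zero_smul ℂ (lft 2 (a ^ 2 ^ (k + 1)) fun _ => 1), ← lft_smul]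
  refine lft_congr _ fun y hy => ?_
  rw [← B0_section hp hχ hy, B0_const_of_npc hp h.npcz hχ (by rw [pp_selfC_mul hp hy]), e]; simp

end DH

end H9
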