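import Cfsg.Agent.H9.Dih1

/-! The principal 2-block of a group with dihedral Sylow 2-subgroups. -/

set_option autoImplicit false
set_option linter.style.haveILetI false
set_option linter.unusedSectionVars false

namespace H9
open Cfsg H3 MonoidAlgebra Subgroup Module
open scoped ComplexConjugate Pointwise

variable {G : Type*} [Group G] [Fintype G] {P : Subgroup G} {a u v x g : G} {k : ℕ}

theorem n1_two_cases {α β S : G → ℂ} (hα : N1 α) (hβ : N1 β) (hS : IsGeneralizedCharacter G S) {n : ℕ}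
    (hn : classInner S S = n) (h3 : n ≤ 3) (e : classInner S (α + β) = 1) :
    (classInner S α = 1 ∧ classInner S β = 0) ∨ (classInner S α = 0 ∧ classInner S β = 1) := by
  rw [H3.inner_add_right] at e
  rcases hα.inner_cases hS hn h3 with h | h | h <;> rcases hβ.inner_cases hS hn h3 with h' | h' | h' <;>
    rw [h, h'] at e <;> norm_num at e <;> simp [h, h']

theorem n1_rest {α θ : G → ℂ} (hα : N1 α) (hθ : IsGeneralizedCharacter G θ) (hn : classInner θ θ = 2)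
    (e : classInner θ α = 1) : N1 (θ - α) :=
  n1_of_norm (hθ.sub hα.isGen) (by rw [norm_sub_n1 hθ hα e, hn]; norm_num)

theorem n1_star {ι : Type*} (T : ι → G → ℂ) (T₀ : G → ℂ) (i₀ : ι) (hT : ∀ i, IsGeneralizedCharacter G (T i))
    (h0 : IsGeneralizedCharacter G T₀) (n2 : ∀ i, classInner (T i) (T i) = 2) (n3 : classInner T₀ T₀ = 3)
    (m : ∀ i, classInner T₀ (T i) = 1) (c : ∀ i j, i ≠ j → classInner (T i) (T j) = 1)
    (t : ∀ i j : ι, i ≠ j → ∃ l, l ≠ i ∧ l ≠ j) (d : ∀ i, T i 1 = -1) (d0 : T₀ 1 = -1) :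
    ∃ α, N1 α ∧ classInner T₀ α = 1 ∧ ∀ i, classInner (T i) α = 1 := by
  obtain ⟨α, β, hα, hβ, o, e, a1, b0⟩ : ∃ α β, N1 α ∧ N1 β ∧ classInner α β = 0 ∧ T i₀ = α + β ∧
      classInner T₀ α = 1 ∧ classInner T₀ β = 0 := by
    obtain ⟨α, β, hα, hβ, o, e⟩ := exists_n1_two (hT i₀) (n2 i₀)
    rcases n1_two_cases hα hβ h0 (n := 3) n3 le_rfl (e ▸ m i₀) with h | h
    · exact ⟨α, β, hα, hβ, o, e, h⟩
    · exact ⟨β, α, hβ, hα, by rw [hβ.inner_comm hα.isGen, o], by rw [e, add_comm], h.2, h.1⟩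
  have o' : classInner β α = 0 := by rw [hβ.inner_comm hα.isGen, o]
  refine ⟨α, hα, a1, fun j => ?_⟩
  by_cases ej : j = i₀
  · rw [ej, e, H3.inner_add_left, hα.inner_self, o', add_zero]
  refine ((n1_two_cases hα hβ (hT j) (n := 2) (n2 j) (by norm_num) (e ▸ c j i₀ ej)).resolve_right
    fun ⟨ja, jb⟩ => ?_).1
  have hγ := n1_rest hβ (hT j) (n2 j) jb
  have g0 : classInner T₀ (T j - β) = 1 := by rw [H3.inner_sub_right, m, b0, sub_zero]
  have ga : classInner α (T j - β) = 0 := by rw [H3.inner_sub_right, hα.inner_comm (hT j), ja, o, sub_zero]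
  have hδ : N1 (T₀ - α - (T j - β)) := n1_rest hγ (h0.sub hα.isGen)
    (by rw [norm_sub_n1 h0 hα a1, n3]; norm_num) (by rw [H3.inner_sub_left, g0, ga, sub_zero])
  obtain ⟨l, lj, li⟩ := t j i₀ ej
  have lj := c l j lj
  rcases n1_two_cases hα hβ (hT l) (n := 2) (n2 l) (by norm_num) (e ▸ c l i₀ li) with ⟨la, lb⟩ | ⟨la, lb⟩
  · have := (n1_rest hα (hT l) (n2 l) la).eq_of_inner hγ (by
      rw [H3.inner_sub_left, ga, H3.inner_sub_right, lj, lb]; ring)
    rw [← this, H3.inner_sub_right, m, a1] at g0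
    norm_num at g0
  · have := (n1_rest hβ (hT l) (n2 l) lb).eq_of_inner hδ (by
      simp only [H3.inner_sub_left, H3.inner_sub_right, lj, lb, la, (hT l).inner_comm h0, m, o',
        hβ.inner_comm h0, b0, hβ.inner_comm (hT j), jb, hβ.inner_self]; ring)
    have h1 := congrFun this 1
    have h2 := congrFun e 1
    obtain ⟨n, hn⟩ := exists_int_of_sq_eq_one hα.isGen (one_pow 2)
    simp only [Pi.sub_apply, Pi.add_apply, d, d0, hn] at h1 h2
    have : (3 * n + 1 : ℂ) = 0 := by linear_combination h1 - 2 * h2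
    have : 3 * n + 1 = 0 := by exact_mod_cast this
    omega

theorem lin_inv_ne {A : Type*} [Group A] {μ : A →* ℂˣ} (h : μ ≠ 1) : μ⁻¹ ≠ 1 := by
  simpa [MonoidHom.ext_iff] using h

variable {M : Ideal AlgInt} [PMod 2 M]

/-- Block parts of induced differences of linear characters. -/
noncomputable def thD (M : Ideal AlgInt) (a : G) (μ : zpowers a →* ℂˣ) : G → ℂ :=
  blockPart (B0 M G).1 (indFun (zpowers a) (lf 1 - lf μ))

variable {μ ν : zpowers a →* ℂˣ} {φ : G → ℂ}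

theorem thD_gen (μ : zpowers a →* ℂˣ) : IsGeneralizedCharacter G (thD M a μ) :=
  isGen_blockPart _ ((lf_irr 1).isGen.sub (lf_irr μ).isGen).ind

theorem thD_span (μ : zpowers a →* ℂˣ) : blockPart (B0 M G).1 (thD M a μ) = thD M a μ := blockPart_idem _ _

theorem inner_thD [Fintype (zpowers a)] (hφ : blockPart (B0 M G).1 φ = φ) (μ : zpowers a →* ℂˣ) :
    classInner φ (thD M a μ) = classInner (fun x : zpowers a => φ x) (lf 1 - lf μ) := by
  rw [thD, ← inner_blockPart_left, hφ, inner_indFun_right _ _ (hφ ▸ isClassFunction_blockPart _ _)]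

theorem thD_one : thD M a 1 = 0 := by
  haveI := Fintype.ofFinite (zpowers a)
  ext g
  rw [← inner_kap (thD_span 1), ← H3.inner_conj_symm, inner_thD (kap_span g)]; simp [H3.inner_zero_right]

theorem thD_apply [Fintype (zpowers a)] (μ : zpowers a →* ℂˣ) (g : G) : thD M a μ g =
    (Nat.card (zpowers a) : ℂ)⁻¹ * ∑ x : zpowers a, (1 - μ x) * conj (kap M g x) := by
  rw [← inner_kap (thD_span μ), ← H3.inner_conj_symm, inner_thD (kap_span g), H3.inner_conj_symm, classInner]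
  simp

theorem one_thD (hμ : μ ≠ 1) : classInner (fun _ => 1) (thD M a μ) = 1 := by
  classical
  haveI := Fintype.ofFinite (zpowers a)
  rw [inner_thD one_span, ← lf_one, H3.inner_sub_right, inner_lf, inner_lf, if_pos rfl, if_neg hμ.symm, sub_zero]

theorem val_thD [Fintype (zpowers a →* ℂˣ)] (hφ : blockPart (B0 M G).1 φ = φ) {u : zpowers a} (h1 : u ≠ 1) :
    φ u = -∑ μ : zpowers a →* ℂˣ, classInner φ (thD M a μ) * μ u := by
  haveI := Fintype.ofFinite (zpowers a)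
  have hc : ∀ x y : zpowers a, x * y = y * x := fun x y => Subtype.ext (H1B.zp_comm x.2 y.2).eq
  simp only [inner_thD hφ, H3.inner_sub_right, sub_mul, Finset.sum_sub_distrib, ← Finset.mul_sum,
    sum_lin hc h1, ← eq_sum_lin hc]
  simp

namespace DH
variable (h : DH P a k)
include h

theorem thD_reg (hg : IsPRegular 2 g) : thD M a μ g = 0 := by
  classical
  haveI := Fintype.ofFinite (zpowers a)
  rw [thD_apply, Finset.sum_eq_zero, mul_zero]
  intro x _
  by_cases e : x = 1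
  · simp [e]
  · rw [kap, blockPart_dl, block_orth' (B0 M G) (by
      rw [pp_of_isPRegular hg, pp_of_isPElt (h.elt x.2)]; simpa using e)]; simp

theorem thD_res : (fun x : zpowers a => thD M a μ x) = lf 1 - lf μ + (lf 1 - lf μ⁻¹) := by
  classical
  haveI := Fintype.ofFinite (zpowers a)
  ext v
  by_cases e : v = 1
  · rw [e, coe_one, h.thD_reg isPRegular_one]; simp
  have n : ((2 ^ (k + 2) : ℕ) : ℂ) ≠ 0 := Nat.cast_ne_zero.2 (by positivity)
  have : ∀ x : zpowers a, (1 - μ x : ℂ) * conj (kap M (v : G) x) = (2 ^ (k + 2) : ℕ) *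
      ((if v = x then (1 - μ x : ℂ) else 0) + if v⁻¹ = x then (1 - μ x : ℂ) else 0) := fun x => by
    rw [h.kap_val v.2 (by simpa using e) x.2]
    simp only [← coe_inv, SetLike.coe_eq_coe, ← inv_eq_iff_eq_inv (a := v), map_mul, map_natCast]
    split_ifs <;> simp only [map_add, map_one, map_zero] <;> ring
  rw [thD_apply, h.cardA, Finset.sum_congr rfl fun x _ => this x, ← Finset.mul_sum, inv_mul_cancel_left₀ n,
    Finset.sum_add_distrib]
  simp

open Classical in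
theorem inner_thD_thD (hμ : μ ≠ 1) (hν : ν ≠ 1) : classInner (thD M a μ) (thD M a ν) =
    2 + (if μ = ν then 1 else 0) + if μ⁻¹ = ν then 1 else 0 := by
  haveI := Fintype.ofFinite (zpowers a)
  rw [inner_thD (thD_span μ), h.thD_res]
  simp only [H3.inner_add_left, H3.inner_sub_left, H3.inner_sub_right, inner_lf, if_true, if_neg hμ,
    if_neg hν.symm, if_neg (lin_inv_ne hμ)]
  ring

theorem thD_inv : thD M a μ⁻¹ = thD M a μ := by
  haveI := Fintype.ofFinite (zpowers a)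
  ext g
  rw [thD_apply, thD_apply, ← Equiv.sum_comp (Equiv.inv _)]
  congr 1
  refine Finset.sum_congr rfl fun x _ => ?_
  rw [(kap_cf g).of_isConj (h.conj_inv x.2)]; simp

end DH

/-- The linear characters of the cyclic subgroup, up to inversion. -/
structure LinD {A : Type*} [Group A] {m : ℕ} (μ₀ : A →* ℂˣ) (ν : Fin m → A →* ℂˣ) : Prop where
  ne : μ₀ ≠ 1
  inv : μ₀⁻¹ = μ₀
  ne1 : ∀ j, ν j ≠ 1
  ne0 : ∀ j, ν j ≠ μ₀
  inj : Function.Injective ν
  ninv : ∀ i j, (ν i)⁻¹ ≠ ν j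
  cls : ∀ μ, μ = 1 ∨ μ = μ₀ ∨ ∃ j, μ = ν j ∨ μ = (ν j)⁻¹

theorem exists_linD {ζ : ℂ} (ha : orderOf a = 2 ^ (k + 2)) (hζ : IsPrimitiveRoot ζ (2 ^ (k + 2))) :
    ∃ (μ₀ : zpowers a →* ℂˣ) (ν : Fin (2 ^ (k + 1) - 1) → zpowers a →* ℂˣ), LinD μ₀ ν ∧
      ∀ l : ℕ, (μ₀ ⟨a ^ l, pow_mem (mem_zpowers a) l⟩ : ℂ) = (-1) ^ l ∧
        ∀ j, (ν j ⟨a ^ l, pow_mem (mem_zpowers a) l⟩ : ℂ) = ζ ^ ((j + 1) * l) := by
  have hg : ∀ x : zpowers a, x ∈ zpowers (⟨a, mem_zpowers a⟩ : zpowers a) := by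
    rintro ⟨_, n, rfl⟩; exact ⟨n, rfl⟩
  have z0 := hζ.ne_zero (by positivity)
  obtain ⟨l, hl⟩ : ∃ l : zpowers a →* ℂˣ, (l ⟨a, mem_zpowers a⟩ : ℂ) = ζ :=
    ⟨monoidHomOfForallMemZpowers hg (g' := Units.mk0 ζ z0) (orderOf_dvd_of_pow_eq_one (by
      rw [orderOf_mk, ha]; ext; simpa using hζ.pow_eq_one)), by rw [monoidHomOfForallMemZpowers_apply_gen]; rfl⟩
  have ev : ∀ i : ℕ, ((l ^ i) ⟨a, mem_zpowers a⟩ : ℂ) = ζ ^ i := fun i => by simp [hl]
  have ex : ∀ μ μ' : zpowers a →* ℂˣ, μ = μ' ↔ (μ ⟨a, mem_zpowers a⟩ : ℂ) = μ' ⟨a, mem_zpowers a⟩ := fun μ μ' => by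
    rw [MonoidHom.eq_iff_eq_on_generator hg, Units.val_inj]
  have e2 : 2 ^ (k + 2) = 2 * 2 ^ (k + 1) := pow_succ' _ _
  have e1 : ∀ i j : ℕ, i < 2 ^ (k + 2) → j < 2 ^ (k + 2) → l ^ i = l ^ j → i = j := fun i j hi hj e =>
    hζ.pow_inj hi hj (by rw [← ev, ← ev, e])
  have e0 : l ^ 0 = 1 := (ex _ _).2 (by rw [ev, pow_zero]; rfl)
  have ei : ∀ i j : ℕ, i + j = 2 ^ (k + 2) → (l ^ i)⁻¹ = l ^ j := fun i j e =>
    (ex _ _).2 (by
      rw [MonoidHom.inv_apply, Units.val_inv_eq_inv_val, ev, ev]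
      exact inv_eq_of_mul_eq_one_right (by rw [← pow_add, e, hζ.pow_eq_one]))
  have p1 : 0 < 2 ^ (k + 1) := by positivity
  refine ⟨l ^ 2 ^ (k + 1), fun j => l ^ (j + 1 : ℕ), ⟨fun e => ?_, ei _ _ (by omega), fun j e => ?_, fun j e => ?_,
    fun i j e => ?_, fun i j e => ?_, fun μ => ?_⟩, fun n => ?_⟩
  · have := e1 _ 0 (by omega) (by omega) (e.trans e0.symm); omega
  · have := e1 _ 0 (by omega) (by omega) (e.trans e0.symm); omega
  · have := e1 _ _ (by omega) (by omega) e; omega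
  · have := e1 _ _ (by omega) (by omega) e; omega
  · have := e1 _ _ (by omega) (by omega) ((ei _ (2 ^ (k + 2) - (i + 1)) (by omega)).symm.trans e); omega
  · haveI : NeZero (2 ^ (k + 2)) := ⟨by omega⟩
    obtain ⟨i, hi, e⟩ := hζ.eq_pow_of_pow_eq_one (ξ := (μ ⟨a, mem_zpowers a⟩ : ℂ)) (by
      rw [← Units.val_pow_eq_pow_val, ← map_pow, ← ha, ← orderOf_mk a (mem_zpowers a), pow_orderOf_eq_one]; simp)
    rw [← ev, ← ex] at e
    subst e
    rcases Nat.eq_zero_or_pos i with rfl | h0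
    · exact .inl e0
    rcases lt_trichotomy i (2 ^ (k + 1)) with h1 | rfl | h1
    · exact .inr (.inr ⟨⟨i - 1, by omega⟩, .inl (by congr 1; simp; omega)⟩)
    · exact .inr (.inl rfl)
    · exact .inr (.inr ⟨⟨2 ^ (k + 2) - i - 1, by omega⟩, .inr (ei _ _ (by simp; omega)).symm⟩)
  · have : (⟨a ^ n, pow_mem (mem_zpowers a) n⟩ : zpowers a) = ⟨a, mem_zpowers a⟩ ^ n := rfl
    simp only [this, map_pow, Units.val_pow_eq_pow_val, ev, pow_mul, implies_true, and_true]
    rw [(hζ.pow (by positivity) (e2.trans (mul_comm _ _))).eq_neg_one_of_two_right]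

end H9
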