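import Cfsg.Agent.H9.Dih2

/-! The characters of the principal 2-block for dihedral Sylow 2-subgroups. -/

set_option autoImplicit false
set_option linter.style.haveILetI false
set_option linter.unusedSectionVars false

namespace H9
open Cfsg H3 MonoidAlgebra Subgroup Module
open scoped ComplexConjugate Pointwise

variable {G : Type*} [Group G] [Fintype G] {P : Subgroup G} {a u v x g : G} {k : ℕ}
  {M : Ideal AlgInt} [PMod 2 M]

theorem fin_third (i j : Fin (2 ^ (k + 1) - 1)) (h : i ≠ j) : ∃ l, l ≠ i ∧ l ≠ j := by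
  by_contra c
  push Not at c
  have e : 2 ^ (k + 1) = 2 * 2 ^ k := pow_succ' _ _
  have := i.2
  have := j.2
  rw [Ne, Fin.ext_iff] at h
  have h0 := c ⟨0, by omega⟩
  have h1 := c ⟨1, by omega⟩
  have h2 := c ⟨2, by omega⟩
  simp only [Ne, Fin.ext_iff] at h0 h1 h2
  omega

theorem N1.orth_of_add {α β γ : G → ℂ} (hα : N1 α) (hβ : N1 β) (o : classInner α β = 0) (hγ : N1 γ)
    (e : classInner (α + β) γ = 0) : classInner α γ = 0 ∧ classInner β γ = 0 := by
  have o' : classInner β α = 0 := by rw [hβ.inner_comm hα.isGen, o]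
  refine ⟨hα.orth hγ (α + β) ?_ ?_, hβ.orth hγ (α + β) ?_ ?_⟩ <;>
    simp [e, H3.inner_add_left (φ := α) (ψ := α), H3.inner_add_left (φ := α) (ψ := β), hα.inner_self,
      hβ.inner_self, o, o']

/-- The signed irreducible characters of the block. -/
structure DSg (M : Ideal AlgInt) (a : G) {m : ℕ} (μ₀ : zpowers a →* ℂˣ) (ν : Fin m → zpowers a →* ℂˣ)
    (L : Fin 4 ⊕ Fin m → G → ℂ) : Prop where
  n1 : ∀ i, N1 (L i)
  orth : ∀ i j, i ≠ j → classInner (L i) (L j) = 0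
  one : L (.inl 0) = fun _ => 1
  mem : ∀ χ : IrrCharacter G, χ ∈ (B0 M G).1 ↔ ∃ i, classInner (L i) χ.1 ≠ 0
  v1 : ∀ u : zpowers a, u ≠ 1 → L (.inl 1) u = 1
  v2 : ∀ u : zpowers a, u ≠ 1 → L (.inl 2) u = -μ₀ u
  v3 : ∀ u : zpowers a, u ≠ 1 → L (.inl 3) u = -μ₀ u
  v4 : ∀ j, ∀ u : zpowers a, u ≠ 1 → L (.inr j) u = -(ν j u + (ν j u : ℂ)⁻¹)
  r1 : ∀ g, IsPRegular 2 g → 1 + L (.inl 1) g + L (.inl 2) g + L (.inl 3) g = 0
  r2 : ∀ j g, IsPRegular 2 g → 1 + L (.inl 1) g + L (.inr j) g = 0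

theorem DH.exists_dsg (h : DH P a k) {μ₀ : zpowers a →* ℂˣ} {ν : Fin (2 ^ (k + 1) - 1) → zpowers a →* ℂˣ}
    (l : LinD μ₀ ν) : ∃ L, DSg M a μ₀ ν L := by
  classical
  haveI := Fintype.ofFinite (zpowers a →* ℂˣ)
  have hc : ∀ x y : zpowers a, x * y = y * x := fun x y => Subtype.ext (H1B.zp_comm x.2 y.2).eq
  have tg := thD_gen (M := M) (a := a)
  have o1 : classInner (fun _ : G => (1 : ℂ)) (fun _ => 1) = 1 := n1_one.inner_self
  have t1 : ∀ μ : zpowers a →* ℂˣ, μ ≠ 1 → classInner (thD M a μ) (fun _ => 1) = 1 := fun μ hμ => by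
    rw [← n1_one.inner_comm (tg μ), one_thD hμ]
  have tt : ∀ μ μ' : zpowers a →* ℂˣ, μ ≠ 1 → μ' ≠ 1 → classInner (thD M a μ - fun _ => 1) (thD M a μ' - fun _ => 1) =
      1 + (if μ = μ' then 1 else 0) + if μ⁻¹ = μ' then 1 else 0 := fun μ μ' h1 h2 => by
    simp only [H3.inner_sub_left, H3.inner_sub_right, h.inner_thD_thD h1 h2, t1 μ h1, one_thD h2, o1]; ring
  have d : ∀ μ, (thD M a μ - fun _ => 1 : G → ℂ) 1 = -1 := fun μ => by simp [h.thD_reg isPRegular_one]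
  obtain ⟨α, hα, a0, aj⟩ := n1_star (fun j => thD M a (ν j) - fun _ => 1) (thD M a μ₀ - fun _ => 1)
    ⟨0, by have := Nat.one_lt_two_pow (n := k + 1) (by omega); omega⟩ (fun j => (tg _).sub isGen_one)
    ((tg _).sub isGen_one) (fun j => by rw [tt _ _ (l.ne1 j) (l.ne1 j), if_pos rfl, if_neg (l.ninv j j)]; norm_num)
    (by rw [tt _ _ l.ne l.ne, if_pos rfl, if_pos l.inv]; norm_num)
    (fun j => by rw [tt _ _ l.ne (l.ne1 j), l.inv, if_neg (l.ne0 j).symm]; norm_num)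
    (fun i j e => by rw [tt _ _ (l.ne1 i) (l.ne1 j), if_neg (l.inj.ne e), if_neg (l.ninv i j)]; norm_num)
    fin_third (fun j => d _) (d _)
  have a1 : classInner α (fun _ => 1) = 0 := by
    refine hα.orth n1_one (thD M a μ₀ - fun _ => 1) ?_ ?_ <;> simp [a0, H3.inner_sub_left (ψ := fun _ => 1), t1 _ l.ne, o1]
  have a1' : classInner (fun _ => 1) α = 0 := by rw [← hα.inner_comm isGen_one, a1]
  have ta : ∀ μ : zpowers a →* ℂˣ, μ ≠ 1 → classInner (thD M a μ) α = 1 := fun μ hμ => by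
    rw [H3.inner_sub_left, a1', sub_zero] at a0
    simp only [H3.inner_sub_left, a1', sub_zero] at aj
    rcases l.cls μ with e | rfl | ⟨j, rfl | rfl⟩
    exacts [absurd e hμ, a0, aj j, by rw [h.thD_inv, aj]]
  obtain ⟨γ, hγ⟩ : ∃ γ : (zpowers a →* ℂˣ) → G → ℂ, ∀ μ, γ μ = thD M a μ - (fun _ => 1) - α := ⟨_, fun _ => rfl⟩
  have gg : ∀ μ, IsGeneralizedCharacter G (γ μ) := fun μ => hγ μ ▸ ((tg μ).sub isGen_one).sub hα.isGen
  have et : ∀ μ, thD M a μ = (fun _ => 1) + α + γ μ := fun μ => by rw [hγ]; ring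
  have g1 : ∀ μ : zpowers a →* ℂˣ, μ ≠ 1 → classInner (γ μ) (fun _ => 1) = 0 := fun μ hμ => by
    rw [hγ, H3.inner_sub_left, H3.inner_sub_left, t1 μ hμ, o1, a1]; ring
  have ga : ∀ μ : zpowers a →* ℂˣ, μ ≠ 1 → classInner (γ μ) α = 0 := fun μ hμ => by
    rw [hγ, H3.inner_sub_left, H3.inner_sub_left, ta μ hμ, a1', hα.inner_self]; ring
  have gt : ∀ μ μ' : zpowers a →* ℂˣ, μ ≠ 1 → classInner (γ μ) (thD M a μ') =
      (if μ = μ' then 1 else 0) + if μ⁻¹ = μ' then 1 else 0 := fun μ μ' hμ => by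
    by_cases e : μ' = 1
    · rw [e, thD_one, H3.inner_zero_right, if_neg hμ, if_neg (lin_inv_ne hμ), add_zero]
    · rw [hγ, H3.inner_sub_left, H3.inner_sub_left, h.inner_thD_thD hμ e, one_thD e, hα.inner_comm (tg _), ta _ e]
      ring
  have gγ : ∀ μ μ' : zpowers a →* ℂˣ, μ ≠ 1 → classInner (γ μ) (γ μ') =
      (if μ = μ' then 1 else 0) + if μ⁻¹ = μ' then 1 else 0 := fun μ μ' hμ => by
    rw [← gt μ μ' hμ, et μ', H3.inner_add_right, H3.inner_add_right, g1 μ hμ, ga μ hμ]; ring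
  have gn : ∀ j, N1 (γ (ν j)) := fun j => n1_of_norm (gg _) (by
    rw [gγ _ _ (l.ne1 j), if_pos rfl, if_neg (l.ninv j j), add_zero])
  obtain ⟨β, β', hβ, hβ', o, e⟩ := exists_n1_two (gg μ₀) (by rw [gγ _ _ l.ne, if_pos rfl, if_pos l.inv]; norm_num)
  have o' : classInner β' β = 0 := by rw [hβ'.inner_comm hβ.isGen, o]
  obtain ⟨b1, b1'⟩ := hβ.orth_of_add hβ' o n1_one (e ▸ g1 _ l.ne)
  obtain ⟨ba, ba'⟩ := hβ.orth_of_add hβ' o hα (e ▸ ga _ l.ne)
  have bg := fun j => hβ.orth_of_add hβ' o (gn j) (by rw [← e, gγ _ _ l.ne, l.inv, if_neg (l.ne0 j).symm, add_zero])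
  have sa := hα.blockPart_eq (thD_span μ₀) (by rw [ta _ l.ne]; exact one_ne_zero)
  have sg : ∀ μ, blockPart (B0 M G).1 (γ μ) = γ μ := fun μ => by
    rw [hγ, blockPart_sub, blockPart_sub, thD_span, one_span, sa]
  have sb := hβ.blockPart_eq (sg μ₀) (by rw [e, H3.inner_add_left, hβ.inner_self, o']; simp)
  have sb' := hβ'.blockPart_eq (sg μ₀) (by rw [e, H3.inner_add_left, hβ'.inner_self, o]; simp)
  have vb : ∀ {β : G → ℂ}, blockPart (B0 M G).1 β = β → classInner β (fun _ => 1) = 0 → classInner β α = 0 →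
      classInner β (γ μ₀) = 1 → (∀ j, classInner β (γ (ν j)) = 0) → ∀ u : zpowers a, u ≠ 1 → β u = -μ₀ u := by
    intro β s h1 h2 h3 h4 u hu
    rw [val_thD s hu, Finset.sum_eq_single μ₀ (fun μ _ hμ => ?_) (by simp), et, H3.inner_add_right,
      H3.inner_add_right, h1, h2, h3]
    · simp
    rcases l.cls μ with rfl | rfl | ⟨j, rfl | rfl⟩
    · simp [thD_one, H3.inner_zero_right]
    · exact absurd rfl hμ
    · rw [et, H3.inner_add_right, H3.inner_add_right, h1, h2, h4]; simp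
    · rw [h.thD_inv, et, H3.inner_add_right, H3.inner_add_right, h1, h2, h4]; simp
  have c := fun {x y : G → ℂ} (hx : N1 x) (hy : N1 y) (e : classInner x y = 0) => (hy.inner_comm hx.isGen).trans e
  refine ⟨Sum.elim ![fun _ => 1, α, β, β'] fun j => γ (ν j), ?_, ?_, rfl, fun χ => ⟨fun hχ => ?_, ?_⟩,
    fun u hu => ?_, vb (β := β) sb b1 ba (by rw [e, H3.inner_add_right, hβ.inner_self, o, add_zero]) fun j => (bg j).1,
    vb (β := β') sb' b1' ba' (by rw [e, H3.inner_add_right, hβ'.inner_self, o', zero_add]) fun j => (bg j).2,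
    fun j u hu => ?_, fun g hg => ?_, fun j g hg => ?_⟩
  · rintro (i | j)
    · fin_cases i
      exacts [n1_one, hα, hβ, hβ']
    · exact gn j
  · have w : ∀ (i : Fin 4) j, classInner (γ (ν j)) (![fun _ => 1, α, β, β'] i) = 0 := fun i j => by
      fin_cases i
      exacts [g1 _ (l.ne1 j), ga _ (l.ne1 j), c hβ (gn j) (bg j).1, c hβ' (gn j) (bg j).2]
    rintro (i | i) (j | j) hij
    · fin_cases i <;> fin_cases j <;> first | exact absurd rfl hij | assumption | skip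
      exacts [c hβ n1_one b1, c hβ' n1_one b1', c hβ hα ba, c hβ' hα ba']
    · fin_cases i
      exacts [c (gn j) n1_one (w 0 j), c (gn j) hα (w 1 j), (bg j).1, (bg j).2]
    · exact w j i
    · exact (gγ _ _ (l.ne1 i)).trans (by rw [if_neg (l.inj.ne (by simpa using hij)), if_neg (l.ninv i j), add_zero])
  · by_contra n
    push Not at n
    have n0 : classInner (fun _ => 1) χ.1 = 0 := n (.inl 0)
    have n1 : classInner α χ.1 = 0 := n (.inl 1)
    have n2 : classInner β χ.1 = 0 := n (.inl 2)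
    have n3 : classInner β' χ.1 = 0 := n (.inl 3)
    have n4 : ∀ j, classInner (γ (ν j)) χ.1 = 0 := fun j => n (.inr j)
    refine h.z_ne_zero hχ ((val_thD (u := ⟨_, pow_mem (mem_zpowers a) _⟩) (blockPart_irr_of_mem hχ)
      (by simpa using h.mx.z_ne)).trans (neg_eq_zero.2 (Finset.sum_eq_zero fun μ _ => ?_)))
    rw [(n1_irr χ).inner_comm (tg μ)]
    rcases l.cls μ with rfl | rfl | ⟨j, rfl | rfl⟩
    · simp [thD_one, H3.inner_zero_left]
    · simp [et, e, H3.inner_add_left, n0, n1, n2, n3]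
    · simp [et, H3.inner_add_left, n0, n1, n4]
    · rw [h.thD_inv]; simp [et, H3.inner_add_left, n0, n1, n4]
  · rintro ⟨i | j, hi⟩
    · fin_cases i
      exacts [n1_one.mem_of_inner one_span hi, hα.mem_of_inner sa hi, hβ.mem_of_inner sb hi, hβ'.mem_of_inner sb' hi]
    · exact (gn j).mem_of_inner (sg _) hi
  · change α u = 1
    have : ∀ μ : zpowers a →* ℂˣ, classInner α (thD M a μ) * μ u = μ u - if 1 = μ then 1 else 0 := fun μ => by
      split_ifs with e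
      · simp [← e, thD_one, H3.inner_zero_right]
      · rw [hα.inner_comm (tg _), ta _ (Ne.symm e)]; simp
    rw [val_thD sa hu, Finset.sum_congr rfl fun μ _ => this μ, Finset.sum_sub_distrib, sum_lin hc hu]; simp
  · change γ (ν j) u = _
    rw [val_thD (sg _) hu]
    simp [gt _ _ (l.ne1 j), add_mul, Finset.sum_add_distrib]
  · have := congrFun (et μ₀) g
    rw [h.thD_reg hg, e] at this
    simpa [add_assoc] using this.symm
  · have := congrFun (et (ν j)) g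
    rw [h.thD_reg hg] at this
    simpa using this.symm

omit [Fintype G] in
theorem dh_of_dih [Finite G] (hS : H1.IsSylowIn 2 P ⊤) (e : P ≃* DihedralGroup (2 ^ (k + 2))) (ha : a ∈ P)
    (ho : orderOf a = 2 ^ (k + 2)) : DH P a k := by
  obtain ⟨c, m, h2⟩ := H1B.mx_of_dih e
  have h : DH P c k := ⟨hS, m, h2⟩
  have hc : a ∈ zpowers c := h.mem_of_sq ha fun e => by
    have := Nat.le_of_dvd two_pos (orderOf_dvd_of_pow_eq_one ((sq a).trans e))
    rw [ho, pow_add] at this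
    have := Nat.one_le_two_pow (n := k); omega
  have e' : zpowers a = zpowers c := h.zp_eq hc (mem_zpowers c) (ho.trans h.ord.symm)
  obtain ⟨b, hb, hbc⟩ := m.ex
  exact ⟨hS, H1B.MX.of_gen ha ho m.card hb (e' ▸ hbc) (by rw [mul_one, h.conj_out hb hbc hc]) (.inl rfl), e' ▸ h2⟩

/-- The irreducible characters of the block. -/
structure DIr (M : Ideal AlgInt) (a : G) (k : ℕ) (ζ : ℂ) (c : Fin 4 ⊕ Fin (2 ^ (k + 1) - 1) → IrrCharacter G)
    (δ : Fin 4 → ℤ) : Prop where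
  sign : ∀ i, δ i = 1 ∨ δ i = -1
  inj : Function.Injective c
  one : c (.inl 0) = trivChar G
  mem : (B0 M G).1 = Set.range c
  val : ∀ l : ℕ, 0 < l → l < 2 ^ (k + 2) → (c (.inl 1)).1 (a ^ l) = δ 1 ∧ (c (.inl 2)).1 (a ^ l) = δ 2 * (-1) ^ (l + 1) ∧
    (c (.inl 3)).1 (a ^ l) = δ 3 * (-1) ^ (l + 1) ∧
    ∀ j, (c (.inr j)).1 (a ^ l) = δ 1 * (ζ ^ (((j : ℕ) + 1) * l) + (ζ ^ (((j : ℕ) + 1) * l))⁻¹)
  r1 : ∀ g, IsPRegular 2 g → 1 + δ 1 * (c (.inl 1)).1 g = -δ 2 * (c (.inl 2)).1 g - δ 3 * (c (.inl 3)).1 g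
  r2 : ∀ j g, IsPRegular 2 g → 1 + δ 1 * (c (.inl 1)).1 g = δ 1 * (c (.inr j)).1 g

theorem DH.exists_dir (h : DH P a k) {ζ : ℂ} (hζ : IsPrimitiveRoot ζ (2 ^ (k + 2))) : ∃ c δ, DIr M a k ζ c δ := by
  classical
  obtain ⟨μ₀, ν, l, hl⟩ := exists_linD h.ord hζ
  obtain ⟨L, s⟩ := h.exists_dsg (M := M) l
  have : ∀ i, ∃ (δ : ℤ) (χ : IrrCharacter G), (δ = 1 ∨ δ = -1) ∧ L i = (δ : ℂ) • χ.1 := fun i => by
    obtain ⟨ε, χ, rfl | rfl, e⟩ := s.n1 i
    exacts [⟨1, χ, .inl rfl, by simpa using e⟩, ⟨-1, χ, .inr rfl, by simpa using e⟩]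
  choose δ c hδ hc using this
  have hi : ∀ i (χ : IrrCharacter G), classInner (L i) χ.1 ≠ 0 ↔ c i = χ := fun i χ => by
    rw [hc, H3.inner_smul_left, inner_irr]
    rcases hδ i with e | e <;> simp [e]
  have ev : ∀ i g, (c i).1 g = δ i * L i g := fun i g => by
    rw [hc]; rcases hδ i with e | e <;> simp [e]
  have ev' : ∀ i g, L i g = δ i * (c i).1 g := fun i g => by rw [hc]; rfl
  have sg : ∀ j, δ (.inr j) = -δ (.inl 1) := fun j => by
    have h1 := s.r2 j 1 isPRegular_one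
    rw [ev', ev', irr_deg, irr_deg] at h1
    have h1 : 1 + δ (.inl 1) * charDegree (c (.inl 1)).1 + δ (.inr j) * charDegree (c (.inr j)).1 = 0 := by
      exact_mod_cast h1
    have := (charDegree_ne_zero (c (.inl 1)).2).pos
    have := (charDegree_ne_zero (c (.inr j)).2).pos
    rcases hδ (.inl 1) with e | e <;> rcases hδ (.inr j) with e' | e' <;> rw [e, e'] at h1 ⊢ <;> omega
  refine ⟨c, fun i => δ (.inl i), fun i => hδ _, fun i j e => by_contra fun n => ?_,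
    (hi _ _).1 (by rw [s.one]; exact n1_one.inner_self.trans_ne one_ne_zero), Set.ext fun χ => ?_,
    fun n h0 hn => ?_, fun g hg => ?_, fun j g hg => ?_⟩
  · have := s.orth i j n
    rw [hc j, H3.inner_smul_right, mul_eq_zero] at this
    refine (hi i _).2 e (this.resolve_left ?_)
    rcases hδ j with e | e <;> simp [e]
  · simp only [s.mem, hi, Set.mem_range]
  · have u1 : (⟨a ^ n, pow_mem (mem_zpowers a) n⟩ : zpowers a) ≠ 1 := fun e =>
      pow_ne_one_of_lt_orderOf h0.ne' (h.ord ▸ hn) (congrArg Subtype.val e)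
    refine ⟨?_, ?_, ?_, fun j => ?_⟩ <;> rw [ev]
    · rw [s.v1 _ u1, mul_one]
    · rw [s.v2 _ u1, (hl n).1]; ring
    · rw [s.v3 _ u1, (hl n).1]; ring
    · rw [s.v4 j _ u1, (hl n).2, sg]; push_cast; ring
  · have := s.r1 g hg
    rw [ev', ev', ev'] at this
    linear_combination this
  · have := s.r2 j g hg
    rw [ev', ev', sg] at this
    push_cast at this
    linear_combination this

theorem DIr.card {ζ : ℂ} {c : Fin 4 ⊕ Fin (2 ^ (k + 1) - 1) → IrrCharacter G} {δ : Fin 4 → ℤ}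
    (h : DIr M a k ζ c δ) : Nat.card (B0 M G).1 = 3 + 2 ^ (k + 1) := by
  rw [h.mem, Nat.card_range_of_injective h.inj, Nat.card_sum, Nat.card_fin, Nat.card_fin]
  have := Nat.one_le_two_pow (n := k + 1); omega

end H9
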