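import Cfsg.Agent.H9.Dih3

/-! Brauer's group order formula for dihedral Sylow 2-subgroups. -/

set_option autoImplicit false
set_option linter.style.haveILetI false
set_option linter.unusedSectionVars false

namespace H9
open Cfsg H3 MonoidAlgebra Subgroup Module
open scoped ComplexConjugate Pointwise

variable {G : Type*} [Group G] [Fintype G] {P : Subgroup G} {a b s t u v x z g : G} {k : ℕ} {θ : G → ℂ}

theorem rob_psi (hθ : IsClassFunction G θ) (g h : G) :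
    rob θ g h = (cen1 g).index * (cen1 h).index * psi h g⁻¹ θ := by
  rw [rob_eq_sum_irr hθ, psi_apply, Finset.mul_sum]
  refine Finset.sum_congr rfl fun χ _ => ?_
  have := χ.2.deg_ne_zero
  rw [centralChar, centralChar, ← cen1_inv g]; field_simp

theorem mem_cen1_of_zp (h : z ∈ zpowers g) : g ∈ cen1 z :=
  mem_centralizer_singleton_iff.2 (H1B.zp_comm (mem_zpowers g) h).eq

open Classical in
theorem ext0_zp (θ : G → ℂ) (y : G) : extendByZero (cen1 z) (fun x => if z ∈ zpowers (x : G) then θ x else 0) y =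
    if z ∈ zpowers y then θ y else 0 := by
  rw [ext0_apply]
  split_ifs with h1 h2 h2
  exacts [rfl, rfl, absurd (mem_cen1_of_zp h2) h1, rfl]

open Classical in
theorem eq_indFun_zp (hθ : IsClassFunction G θ) (h0 : ∀ g, IsPRegular 2 g → θ g = 0) (hz : orderOf z = 2)
    (hone : ∀ t, orderOf t = 2 → IsConj z t) :
    θ = indFun (cen1 z) fun x => if z ∈ zpowers (x : G) then θ x else 0 := by
  ext g
  rw [indFun_apply']
  simp only [ext0_zp, hθ g]
  by_cases hg : IsPRegular 2 g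
  · simp [h0 g hg]
  obtain ⟨w, hw, h1, h2⟩ := exists_involution_mem_zpowers hg
  have o := orderOf_eq_prime h2 h1
  obtain ⟨c, hc⟩ := isConj_iff.1 (hone w o)
  have m : ∀ x, x * w * x⁻¹ ∈ zpowers (x * g * x⁻¹) := fun x => by
    obtain ⟨n, rfl⟩ := hw; exact ⟨n, conj_zpow⟩
  have e : ∀ x, z ∈ zpowers (x * g * x⁻¹) ↔ x * c ∈ cen1 z := fun x => by
    rw [mem_cen1, show x * c * z * (x * c)⁻¹ = x * w * x⁻¹ by rw [← hc]; group]
    exact ⟨fun h => H1B.inv_unique_zpowers (m x) h ((orderOf_conj' _ _).trans o) hz, fun h => h ▸ m x⟩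
  simp only [e]
  have := Equiv.sum_comp (Equiv.mulRight c) fun x => if x ∈ cen1 z then θ g else 0
  simp only [Equiv.coe_mulRight] at this
  rw [← Finset.sum_filter (s := Finset.univ) (· ∈ cen1 z), Finset.sum_const, nsmul_eq_mul, ← Fintype.card_subtype,
    ← Nat.card_eq_fintype_card] at this
  rw [eq_inv_mul_iff_mul_eq₀ (Nat.cast_ne_zero.2 Nat.card_pos.ne')]
  convert this.symm using 2
  exact if_congr Iff.rfl rfl rfl

theorem exists_retract' {C : Subgroup G} (h : HasNormalPComplement 2 C) (hP : H1.IsSylowIn 2 P C) :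
    ∃ p : G → G, (∀ x, p x ∈ P) ∧ (∀ x ∈ P, p x = x) ∧ (∀ x ∈ C, p x = 1 ↔ IsPRegular 2 x) ∧
      (∀ x ∈ C, ∀ y ∈ C, p (x * y) = p x * p y) ∧ (∀ x ∈ C, p x⁻¹ = (p x)⁻¹) ∧ ∀ x ∈ C, IsConj (p x) (pp 2 x) := by
  classical
  obtain ⟨π, h1, h2, h3⟩ := exists_retract h hP
  have e : ∀ x (hx : x ∈ C), (if h : x ∈ C then π ⟨x, h⟩ else 1) = π ⟨x, hx⟩ := fun x hx => dif_pos hx
  refine ⟨fun x => if h : x ∈ C then π ⟨x, h⟩ else 1, fun x => ?_, fun x hx => ?_, fun x hx => ?_,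
    fun x hx y hy => ?_, fun x hx => ?_, fun x hx => ?_⟩
  · dsimp only; split_ifs; exacts [h1 _, one_mem _]
  · exact (e x (hP.le hx)).trans (h2 _ hx)
  · simp only [e _ hx]; exact (h3 _).trans isPRegular_coe.symm
  · simp only [e _ hx, e _ hy, e _ (mul_mem hx hy), ← map_mul]; rfl
  · simp only [e _ hx, e _ (inv_mem hx), ← map_inv]; rfl
  · obtain ⟨c, hc, hc'⟩ := exists_conj_mem_sylow hP (isPElt_pp (p := 2) x) (pp_mem hx)
    have a1 : π ⟨x, hx⟩ = π ⟨_, pp_mem (p := 2) hx⟩ := by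
      rw [← mul_one (π ⟨_, pp_mem (p := 2) hx⟩), ← (h3 ⟨_, pq_mem (p := 2) hx⟩).2
        (isPRegular_coe.1 (isPRegular_pq x)), ← map_mul]
      congr 1; ext; simp
    have a2 := h2 (⟨c, hc⟩ * ⟨_, pp_mem (p := 2) hx⟩ * ⟨c, hc⟩⁻¹) hc'
    rw [map_mul, map_mul, map_inv, ← a1] at a2
    simp only [e _ hx]
    exact (isConj_iff.2 ⟨_, a2⟩).trans (isConj_iff.2 ⟨c, rfl⟩).symm

theorem dh_of_gen (hS : H1.IsSylowIn 2 P ⊤) (ha : a ∈ P) (hb : b ∈ P) (ho : orderOf a = 2 ^ (k + 2))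
    (hob : orderOf b = 2) (hr : b * a * b⁻¹ = a⁻¹) (hg : closure {a, b} = P) : DH P a k ∧ b ∉ zpowers a := by
  have bb : b * b = 1 := by rw [← sq, ← hob, pow_orderOf_eq_one]
  have bi : b⁻¹ = b := inv_eq_of_mul_eq_one_right bb
  have c : ∀ u ∈ zpowers a, b * u * b⁻¹ = u⁻¹ := by
    rintro _ ⟨n, rfl⟩; simp only [← conj_zpow, hr, inv_zpow]
  have c' : ∀ u ∈ zpowers a, b * u * b⁻¹ ∈ zpowers a := fun u hu => c u hu ▸ inv_mem hu
  have n : b ∉ zpowers a := fun e => by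
    rw [(H1B.zp_comm e (mem_zpowers a)).eq, mul_inv_cancel_right, ← mul_eq_one_iff_eq_inv] at hr
    have := Nat.le_of_dvd two_pos (orderOf_dvd_of_pow_eq_one ((sq a).trans hr))
    rw [ho, pow_add] at this
    have := Nat.one_le_two_pow (n := k); omega
  have key : ∀ x ∈ P, x ∈ zpowers a ∨ x * b ∈ zpowers a := by
    subst hg
    intro x hx
    induction hx using closure_induction with
    | mem x hx => rcases hx with rfl | rfl; exacts [.inl (mem_zpowers _), .inr (bb ▸ one_mem _)]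
    | one => exact .inl (one_mem _)
    | mul x y _ _ hx hy =>
      rcases hx with hx | hx <;> rcases hy with hy | hy
      · exact .inl (mul_mem hx hy)
      · exact .inr (mul_assoc x y b ▸ mul_mem hx hy)
      · refine .inr ?_
        have := mul_mem hx (c' _ hy)
        rwa [show x * b * (b * y * b⁻¹) = x * (b * b) * y * b⁻¹ by group, bb, mul_one, bi] at this
      · refine .inl ?_
        have := mul_mem hx (c' _ hy)
        rwa [show x * b * (b * (y * b) * b⁻¹) = x * (b * b) * y by group, bb, mul_one] at this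
    | inv x _ hx =>
      refine hx.imp inv_mem fun hx => ?_
      have := c' _ (inv_mem hx)
      rwa [show b * (x * b)⁻¹ * b⁻¹ = x⁻¹ * b⁻¹ by group, bi] at this
  have i : (zpowers a).relIndex P = 2 := relIndex_eq_two_iff.2 ⟨b, hb, fun x hx => by
    rcases key x hx with h | h
    · exact .inr ⟨h, fun h' => n (by simpa using mul_mem (inv_mem h) h')⟩
    · exact .inl ⟨h, fun h' => n (by simpa using mul_mem (inv_mem h') h)⟩⟩
  have cP : Nat.card P = 2 ^ (k + 3) := by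
    have := H7.relIndex_mul_card_inf (zpowers a) P
    rw [i, inf_eq_left.2 (zpowers_le.2 ha), Nat.card_zpowers, ho] at this
    rw [← this]; ring
  refine ⟨⟨hS, H1B.MX.of_gen ha ho cP hb n (by rw [hr, mul_one]) (.inl rfl), fun x hx hxa => ?_⟩, n⟩
  have := c _ ((key x hx).resolve_left hxa)
  rw [show b * (x * b) * b⁻¹ = b * x by group, mul_inv_rev, bi, mul_right_inj] at this
  exact mul_eq_one_iff_eq_inv.2 this

namespace DH
variable (h : DH P a k) (hb : b ∈ P) (hba : b ∉ zpowers a)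
  (hc : IsConj (a ^ 2 ^ (k + 1)) b ∧ IsConj (a ^ 2 ^ (k + 1)) (a * b))
include h hb hba

theorem out_conj (hx : x ∈ P) (hxa : x ∉ zpowers a) :
    (∃ s ∈ zpowers a, s * b * s⁻¹ = x) ∨ ∃ s ∈ zpowers a, s * (a * b) * s⁻¹ = x :=
  (h.mx.out_cases hb hba hx hxa).imp (h.mx.exists_conj hb hba)
    (h.mx.exists_conj (mul_mem h.mx.mem hb) (h.mx.mul_out hb hba (mem_zpowers a)))

include hc in
theorem one_class (ht : orderOf t = 2) : IsConj (a ^ 2 ^ (k + 1)) t := by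
  obtain ⟨c, -, e⟩ := exists_conj_mem_sylow h.syl (x := t) ⟨1, ht⟩ (mem_top t)
  refine IsConj.trans ?_ (isConj_iff.2 ⟨c, rfl⟩).symm
  by_cases m : c * t * c⁻¹ ∈ zpowers a
  · rw [H1B.inv_unique_zpowers m (pow_mem (mem_zpowers a) _) ((orderOf_conj' _ _).trans ht) h.mx.z_ord]
  · rcases h.out_conj hb hba e m with ⟨s, -, e⟩ | ⟨s, -, e⟩
    exacts [hc.1.trans (isConj_iff.2 ⟨s, e⟩), hc.2.trans (isConj_iff.2 ⟨s, e⟩)]

include hc in
theorem card_K : {s | IsConj (a ^ 2 ^ (k + 1)) s ∧ s ∈ cen1 (a ^ 2 ^ (k + 1)) ∧ s ≠ a ^ 2 ^ (k + 1)}.ncard =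
    (cen1 b).relIndex (cen1 (a ^ 2 ^ (k + 1))) + (cen1 (a * b)).relIndex (cen1 (a ^ 2 ^ (k + 1))) := by
  obtain ⟨p, p1, p2, -, p4, p5, -⟩ := exists_retract' h.npcz h.sylz
  have ab := mul_mem h.mx.mem hb
  have zA : a ^ 2 ^ (k + 1) ∈ zpowers a := pow_mem (mem_zpowers a) _
  have w : ∀ y ∈ P, y ∉ zpowers a → IsConj (a ^ 2 ^ (k + 1)) y → ∀ n ∈ cen1 (a ^ 2 ^ (k + 1)),
      IsConj (a ^ 2 ^ (k + 1)) (n * y * n⁻¹) ∧ n * y * n⁻¹ ∈ cen1 (a ^ 2 ^ (k + 1)) ∧
        n * y * n⁻¹ ≠ a ^ 2 ^ (k + 1) := fun y hy hya e n hn =>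
    ⟨e.trans (isConj_iff.2 ⟨n, rfl⟩), mul_mem (mul_mem hn (h.P_le hy)) (inv_mem hn), fun e' => hya (by
      rw [← mem_cen1.1 hn, mul_left_inj, mul_right_inj] at e'; exact e' ▸ zA)⟩
  have q : ∀ y ∈ P, ∀ n ∈ cen1 (a ^ 2 ^ (k + 1)), p (n * y * n⁻¹) = p n * y * (p n)⁻¹ := fun y hy n hn => by
    rw [p4 _ (mul_mem hn (h.P_le hy)) _ (inv_mem hn), p4 _ hn _ (h.P_le hy), p5 _ hn, p2 y hy]
  rw [← card_conj_eq_relIndex, ← card_conj_eq_relIndex, ← Set.ncard_union_eq]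
  · congr 1
    refine Set.ext fun s => ⟨fun ⟨h1, h2, h3⟩ => ?_, ?_⟩
    · obtain ⟨c, hc, e⟩ := exists_conj_mem_sylow h.sylz ((h.elt zA).of_isConj h1) h2
      have m : c * s * c⁻¹ ∉ zpowers a := fun m => h3 (by
        have := H1B.inv_unique_zpowers m zA (by
          obtain ⟨g, rfl⟩ := isConj_iff.1 h1; rw [orderOf_conj', orderOf_conj', h.mx.z_ord]) h.mx.z_ord
        rwa [← mem_cen1.1 hc, mul_left_inj, mul_right_inj] at this)
      refine (h.out_conj hb hba e m).imp (fun ⟨s, hs, e⟩ => ?_) fun ⟨s, hs, e⟩ => ?_ <;>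
        exact ⟨c⁻¹ * s, mul_mem (inv_mem hc) (h.P_le (h.le hs)), by
          rw [mul_inv_rev, inv_inv, mul_assoc c⁻¹, mul_assoc c⁻¹, ← mul_assoc _ s⁻¹, e]; group⟩
    · rintro (⟨n, hn, rfl⟩ | ⟨n, hn, rfl⟩)
      exacts [w b hb hba hc.1 n hn, w _ ab (h.mx.mul_out hb hba (mem_zpowers a)) hc.2 n hn]
  · refine Set.disjoint_left.2 ?_
    rintro _ ⟨n, hn, rfl⟩ ⟨m, hm, e⟩
    have e' := congrArg p e
    rw [q _ hb n hn, q _ ab m hm] at e'
    refine h.mx.not_both hb ?_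
    convert h.mx.comm_memB (mul_mem (inv_mem (p1 m)) (p1 n)) hb using 2
    rw [mul_inv_rev, inv_inv, mul_assoc _ (p n), mul_assoc _ (p n * b), ← mul_assoc _ (p n)⁻¹, ← e']; group

include hc in
theorem rob_eq {M : Ideal AlgInt} [PMod 2 M] (hθ : blockPart (B0 M G).1 θ = θ) (h0 : ∀ g, IsPRegular 2 g → θ g = 0)
    (h4 : ∀ u ∈ zpowers a, θ (a ^ 2 ^ (k + 1) * u) + θ u = 4) :
    rob θ (a ^ 2 ^ (k + 1)) (a ^ 2 ^ (k + 1)) = (cen1 (a ^ 2 ^ (k + 1))).index * (2 *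
      ((cen1 b).relIndex (cen1 (a ^ 2 ^ (k + 1))) + (cen1 (a * b)).relIndex (cen1 (a ^ 2 ^ (k + 1))) : ℕ) ^ 2) := by
  classical
  have cf : IsClassFunction G θ := hθ ▸ isClassFunction_blockPart _ _
  obtain ⟨p, p1, p2, p3, p4, p5, p6⟩ := exists_retract' h.npcz h.sylz
  have zA : a ^ 2 ^ (k + 1) ∈ zpowers a := pow_mem (mem_zpowers a) _
  have uu : a ^ 2 ^ k * a ^ 2 ^ k = a ^ 2 ^ (k + 1) := by rw [← pow_add, ← two_mul, ← pow_succ']
  have zz := h.mx.z_sq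
  have zo := h.mx.z_ord
  have z1 := h.mx.z_ne
  have PC := h.P_le
  rw [← h.card_K hb hba hc]
  conv_lhs => rw [eq_indFun_zp cf h0 zo fun t ht => h.one_class hb hba hc ht, rob_indFun, rob_eq_sum]
  generalize hz : a ^ 2 ^ (k + 1) = z at *
  have zC := PC (h.le zA)
  set K := Finset.univ.filter fun s => IsConj z s ∧ s ∈ cen1 z ∧ s ≠ z with hK
  have mK : ∀ s, s ∈ K ↔ IsConj z s ∧ s ∈ cen1 z ∧ s ≠ z := fun s => by simp [hK]
  have o : ∀ s, IsConj z s → orderOf s = 2 := fun s e => by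
    obtain ⟨g, rfl⟩ := isConj_iff.1 e; rw [orderOf_conj', zo]
  have sq1 : ∀ s, IsConj z s → s * s = 1 := fun s e => by rw [← sq, ← o s e, pow_orderOf_eq_one]
  have iv : ∀ s, IsConj z s → s⁻¹ = s := fun s e => inv_eq_of_mul_eq_one_right (sq1 s e)
  have pz : ∀ x ∈ cen1 z, p x = z → pp 2 x = z := fun x hx e => by
    have := pp_selfC_mul (h.elt zA) (y := ⟨z⁻¹ * x, mul_mem (inv_mem zC) hx⟩) (isPRegular_coe.1
      ((p3 _ (mul_mem (inv_mem zC) hx)).1 (by rw [p4 _ (inv_mem zC) _ hx, p2 _ (inv_mem (h.le zA)), e, inv_mul_cancel])))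
    simpa using this
  have pK : ∀ s ∈ K, p s ∉ zpowers a := fun s hs m => by
    obtain ⟨h1, h2, h3⟩ := (mK s).1 hs
    have hs2 : IsPElt 2 s := ⟨1, o s h1⟩
    rcases h.mx.eq_of_sq m (by rw [← p4 _ h2 _ h2, sq1 s h1, p2 _ (one_mem _)]) with e | e
    · have := o s h1
      rw [eq_one_of_isPElt_of_isPRegular hs2 ((p3 s h2).1 e), orderOf_one] at this; omega
    · exact h3 ((pp_of_isPElt hs2).symm.trans (pz s h2 (e.trans hz)))
  have tp : ∀ x ∈ cen1 z, p x ∈ zpowers a → θ x = θ (p x) := fun x hx m => by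
    by_cases e : p x = 1
    · rw [e, h0 x ((p3 x hx).1 e), h0 1 isPRegular_one]
    · exact span_const_of_npc (h.elt m) (h.npc m e) hθ (p6 x hx)
  have pA : ∀ s ∈ K, ∀ t ∈ K, t * s⁻¹ ∈ cen1 z ∧ p (t * s⁻¹) = p t * (p s)⁻¹ ∧ p t * (p s)⁻¹ ∈ zpowers a :=
    fun s hs t ht => ⟨mul_mem ((mK t).1 ht).2.1 (inv_mem ((mK s).1 hs).2.1),
      by rw [p4 _ ((mK t).1 ht).2.1 _ (inv_mem ((mK s).1 hs).2.1), p5 _ ((mK s).1 hs).2.1],
      h.mx.out_mul_inv (p1 t) (p1 s) (pK t ht) (pK s hs)⟩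
  have k1 : ∀ s t, IsConj z s → IsConj z t → z ∈ zpowers (t * s⁻¹) → s ∈ K ∧ t ∈ K := fun s t hs ht m => by
    have c1 : t ∈ cen1 z := by
      obtain ⟨n, e⟩ := m
      have : t * (t * s⁻¹) * t⁻¹ = (t * s⁻¹)⁻¹ := by rw [← mul_assoc, sq1 t ht, one_mul, mul_inv_rev, inv_inv, iv s hs]
      rw [mem_cen1, ← iv z (IsConj.refl z)]
      conv_lhs => rw [iv z (IsConj.refl z), ← e, ← conj_zpow, this, inv_zpow]
      rw [← e]
    have c2 : s ∈ cen1 z := by simpa using mul_mem (inv_mem (mem_cen1_of_zp m)) c1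
    have n : ∀ x, x * x = 1 → z ∈ zpowers x → x = z := fun x hx m => H1B.inv_unique_zpowers (mem_zpowers x) m
      (orderOf_eq_prime ((sq x).trans hx) (by rintro rfl; exact z1 (by simpa using m))) zo
    refine ⟨(mK s).2 ⟨hs, c2, ?_⟩, (mK t).2 ⟨ht, c1, ?_⟩⟩
    · rintro rfl
      have := n _ (by rw [iv s hs, mul_assoc, ← mul_assoc s t, ← mem_centralizer_singleton_iff.1 c1, mul_assoc, zz,
        mul_one, sq1 t ht]) m
      rw [iv s hs, mul_eq_right] at this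
      have e := o t ht; rw [this, orderOf_one] at e; omega
    · rintro rfl
      have := n _ (by rw [iv s hs, mul_assoc, ← mul_assoc s t, mem_centralizer_singleton_iff.1 c2, mul_assoc, sq1 s hs,
        mul_one, zz]) m
      rw [iv s hs, mul_eq_left] at this
      have e := o s hs; rw [this, orderOf_one] at e; omega
  have k2 : ∀ s ∈ K, ∀ t ∈ K, (if z ∈ zpowers (t * s⁻¹) then θ (t * s⁻¹) else 0) = θ (p t * (p s)⁻¹) := by
    intro s hs t ht
    obtain ⟨h1, h2, h3⟩ := pA s hs t ht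
    rw [← h2] at h3 ⊢
    split_ifs with m
    · exact tp _ h1 h3
    · by_contra n
      obtain ⟨w, ⟨i, rfl⟩, w1, w2⟩ := exists_involution_mem_zpowers (x := p (t * s⁻¹)) fun r => n (h0 _ r).symm
      have e : ∀ i : ℤ, p ((t * s⁻¹) ^ i) = p (t * s⁻¹) ^ i := fun i => by
        induction i using Int.induction_on with
        | zero => simpa using p2 _ (one_mem _)
        | succ i hi => rw [zpow_add_one, zpow_add_one, p4 _ (zpow_mem h1 _) _ h1, hi]
        | pred i hi => rw [zpow_sub_one, zpow_sub_one, p4 _ (zpow_mem h1 _) _ (inv_mem h1), hi, p5 _ h1]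
      have := pz _ (zpow_mem h1 i) ((e i).trans
        (H1B.inv_unique_zpowers (zpow_mem h3 i) zA (orderOf_eq_prime w2 w1) zo))
      exact m (this ▸ pp_mem (zpow_mem (mem_zpowers _) i))
  have k3 : ∀ s ∈ K, ∑ t ∈ K, θ (p t * (p s)⁻¹) = 2 * K.card := fun s hs => by
    have wA : a ^ 2 ^ k ∈ zpowers a := pow_mem (mem_zpowers a) _
    have wC := PC (h.le wA)
    have cK : ∀ w ∈ cen1 z, ∀ t ∈ K, w * t * w⁻¹ ∈ K := fun w hw t ht => by
      obtain ⟨h1, h2, h3⟩ := (mK t).1 ht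
      exact (mK _).2 ⟨h1.trans (isConj_iff.2 ⟨w, rfl⟩), mul_mem (mul_mem hw h2) (inv_mem hw), fun e => h3 (by
        rwa [← mem_cen1.1 hw, mul_left_inj, mul_right_inj] at e)⟩
    have e : ∑ t ∈ K, θ (z * (p t * (p s)⁻¹)) = ∑ t ∈ K, θ (p t * (p s)⁻¹) := by
      refine Finset.sum_nbij' (fun t => a ^ 2 ^ k * t * (a ^ 2 ^ k)⁻¹) (fun t => (a ^ 2 ^ k)⁻¹ * t * (a ^ 2 ^ k)⁻¹⁻¹)
        (cK _ wC) (cK _ (inv_mem wC)) (fun t _ => by group) (fun t _ => by group) fun t ht => ?_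
      have h2 := ((mK t).1 ht).2.1
      rw [p4 _ (mul_mem wC h2) _ (inv_mem wC), p4 _ wC _ h2, p2 _ (h.le wA), p2 _ (inv_mem (h.le wA)), ← uu]
      congr 1
      have := h.conj_out (p1 t) (pK t ht) (inv_mem wA)
      rw [inv_inv] at this
      conv_lhs => rw [mul_assoc]; arg 2; rw [← this]
      group
    have : ∑ t ∈ K, (θ (z * (p t * (p s)⁻¹)) + θ (p t * (p s)⁻¹)) = 4 * K.card := by
      rw [Finset.sum_congr rfl fun t ht => h4 _ (pA s hs t ht).2.2]; simp [mul_comm]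
    rw [Finset.sum_add_distrib, e] at this
    linear_combination this / 2
  have sK : K ⊆ Finset.univ.filter (IsConj z) := fun s hs => by simpa using ((mK s).1 hs).1
  simp only [ext0_zp]
  rw [← Finset.sum_subset sK fun s hs n => Finset.sum_eq_zero fun t ht => if_neg fun m =>
    n (k1 s t (by simpa using hs) (by simpa using ht) m).1, Finset.sum_congr rfl (g := fun _ => 2 * (K.card : ℂ))
    fun s hs => by
      rw [← Finset.sum_subset sK fun t ht n => if_neg fun m => n (k1 s t ((mK s).1 hs).1 (by simpa using ht) m).2,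
        Finset.sum_congr rfl (k2 s hs), k3 s hs], Set.ncard_eq_toFinset_card', Set.toFinset_ofPred]
  simp only [Finset.sum_const, nsmul_eq_mul, ← hK]; ring

include hc in
theorem formula {M : Ideal AlgInt} [PMod 2 M] {χ : IrrCharacter G} (hχ : χ ∈ (B0 M G).1) (h1 : χ.1 ≠ fun _ => 1)
    {δ : ℤ} (hδ : δ = 1 ∨ δ = -1) (hv : ∀ l : ℕ, 0 < l → l < 2 ^ (k + 2) → χ.1 (a ^ l) = δ) :
    (charDegree χ.1 : ℤ) + δ ≠ 0 ∧ ((cen1 (a ^ 2 ^ (k + 1))).index : ℤ) * (charDegree χ.1 - δ) ^ 2 =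
      2 * charDegree χ.1 * (charDegree χ.1 + δ) * ((cen1 b).relIndex (cen1 (a ^ 2 ^ (k + 1))) +
        (cen1 (a * b)).relIndex (cen1 (a ^ 2 ^ (k + 1))) : ℕ) ^ 2 := by
  have hζ := Complex.isPrimitiveRoot_exp (2 ^ (k + 2)) (by positivity)
  generalize Complex.exp _ = ζ at hζ
  obtain ⟨c, ε, s⟩ := h.exists_dir (M := M) hζ
  have e2 : 2 ^ (k + 2) = 2 * 2 ^ (k + 1) := pow_succ' _ _
  have e1 : 2 ^ (k + 1) = 2 * 2 ^ k := pow_succ' _ _
  have p0 : 0 < 2 ^ k := by positivity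
  have zm : ζ ^ 2 ^ (k + 1) = -1 := (hζ.pow (by positivity) (e2.trans (mul_comm _ _))).eq_neg_one_of_two_right
  have v1 := s.val 1 one_pos (by omega)
  have v2 := s.val 2 two_pos (by omega)
  have vz := s.val (2 ^ (k + 1)) (by omega) (by omega)
  have w1 := hv 1 one_pos (by omega)
  have w2 := hv 2 two_pos (by omega)
  have wz := hv (2 ^ (k + 1)) (by omega) (by omega)
  have d0 : (δ : ℂ) ≠ 0 := by rcases hδ with rfl | rfl <;> simp
  obtain rfl : c (.inl 1) = χ := by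
    obtain ⟨i | j, rfl⟩ := s.mem.le hχ
    · fin_cases i
      · exact absurd (congrArg Subtype.val s.one) h1
      · rfl
      · exact absurd (by linear_combination (w1.symm.trans v1.2.1 + w2.symm.trans v2.2.1) / 2) d0
      · exact absurd (by linear_combination (w1.symm.trans v1.2.2.1 + w2.symm.trans v2.2.2.1) / 2) d0
    · have := wz.symm.trans (vz.2.2.2 j)
      rw [mul_comm (_ + 1), pow_mul, zm] at this
      rcases neg_one_pow_eq_or ℂ ((j : ℕ) + 1) with e | e <;> rw [e] at this <;> rcases hδ with rfl | rfl <;>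
        rcases s.sign 1 with e | e <;> rw [e] at this <;> norm_num at this
  obtain rfl : ε 1 = δ := by exact_mod_cast v1.1.symm.trans w1
  obtain ⟨j, hj⟩ : ∃ j : Fin (2 ^ (k + 1) - 1), (j : ℕ) = 0 := ⟨⟨0, by omega⟩, rfl⟩
  have dd : (ε 1 : ℂ) * ε 1 = 1 := by rcases hδ with e | e <;> simp [e]
  obtain ⟨θ, hθ⟩ : ∃ θ : G → ℂ, θ = (fun _ => 1) + (ε 1 : ℂ) • (c (.inl 1)).1 + (-ε 1 : ℂ) • (c (.inr j)).1 := ⟨_, rfl⟩
  have sp : blockPart (B0 M G).1 θ = θ := hθ ▸ span_add (span_add one_span (span_smul (blockPart_irr_of_mem hχ) _))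
    (span_smul (blockPart_irr_of_mem (s.mem.ge ⟨_, rfl⟩)) _)
  have t0 : ∀ g, IsPRegular 2 g → θ g = 0 := fun g hg => by
    simp only [hθ, Pi.add_apply, Pi.smul_apply, smul_eq_mul]; linear_combination s.r2 j g hg
  have tv : ∀ l : ℕ, θ (a ^ l) = 2 - (ζ ^ l + (ζ ^ l)⁻¹) := fun l => by
    rw [← pow_mod_orderOf a, ← pow_mod_orderOf ζ, ← hζ.eq_orderOf, h.ord]
    rcases Nat.eq_zero_or_pos (l % 2 ^ (k + 2)) with e | e
    · rw [e, pow_zero, t0 1 isPRegular_one]; norm_num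
    · have := s.val _ e (Nat.mod_lt _ (by omega))
      simp only [hθ, Pi.add_apply, Pi.smul_apply, smul_eq_mul, this.1, this.2.2.2 j, hj, zero_add, one_mul]
      linear_combination (1 - (ζ ^ (l % 2 ^ (k + 2)) + (ζ ^ (l % 2 ^ (k + 2)))⁻¹)) * dd
  have e := h.rob_eq hb hba hc sp t0 fun u hu => by
    obtain ⟨l, rfl⟩ := (mem_powers_iff_mem_zpowers.2 hu)
    simp only [← pow_add, tv]; rw [pow_add, zm, neg_one_mul, inv_neg]; ring
  have x0 := (c (.inl 1)).2.deg_ne_zero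
  have y0 := (c (.inr j)).2.deg_ne_zero
  have y1 : (c (.inr j)).1 1 = (c (.inl 1)).1 1 + ε 1 := by
    linear_combination (-ε 1 : ℂ) * s.r2 j 1 isPRegular_one + ((c (.inl 1)).1 1 - (c (.inr j)).1 1) * dd
  have i0 : ((cen1 (a ^ 2 ^ (k + 1))).index : ℂ) ≠ 0 := Nat.cast_ne_zero.2 FiniteIndex.index_ne_zero
  rw [rob_psi (sp ▸ isClassFunction_blockPart _ _), inv_eq_of_mul_eq_one_right h.mx.z_sq, mul_assoc,
    mul_right_inj' i0, hθ, map_add, map_add, map_smul, map_smul, psi_one, psi_irr, psi_irr, vz.1, vz.2.2.2 j, hj,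
    zero_add, one_mul, zm, y1] at e
  rw [y1, irr_deg] at y0
  rw [irr_deg] at x0 e
  refine ⟨by exact_mod_cast y0, ?_⟩
  generalize (cen1 b).relIndex _ + _ = r at e ⊢
  have : ((cen1 (a ^ 2 ^ (k + 1))).index : ℂ) * (charDegree (c (.inl 1)).1 - ε 1) ^ 2 =
      2 * charDegree (c (.inl 1)).1 * (charDegree (c (.inl 1)).1 + ε 1) * r ^ 2 := by
    rw [mul_assoc, mul_assoc, mul_left_comm 2, mul_left_comm 2, ← e]
    rcases hδ with e | e <;> rw [e] at y0 ⊢ <;> simp only [smul_eq_mul] <;> push_cast at y0 ⊢ <;> field_simp <;> ring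
  exact_mod_cast this

end DH

end H9
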