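import Cfsg.Agent.H9.Pr1

/-! Groups with a Sylow normalizer of order `2p` and a faithful character of degree `p - 1`. -/

set_option autoImplicit false
set_option linter.style.haveILetI false
set_option linter.unusedSectionVars false

namespace H9
open Cfsg H3 MonoidAlgebra Subgroup Module
open scoped ComplexConjugate Pointwise MatrixGroups

variable {p : ℕ} {G : Type*} [Group G] [Finite G] [hp : Fact p.Prime] {x g : G}
  {χ η : IrrCharacter G} {Y : Set (IrrCharacter G)} {δ : ℤ}

theorem SC.sum_sq [Fintype G] (h : SC p x) (h2 : 2 < p) {θ : G → ℂ} (hθ : ∀ g, IsPRegular p g → θ g = 0) :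
    ∑ g, θ (g * g) = ∑ g, θ g := by
  classical
  obtain ⟨k, hk⟩ := hp.out.odd_of_ne_two h2.ne'
  have e : ∀ g : G, ¬ IsPRegular p g → (g * g) ^ (k + 1) = g ∧ g ^ (k + 1) * g ^ (k + 1) = g := fun g hg => by
    have : g ^ (2 * (k + 1)) = g := by
      rw [show 2 * (k + 1) = p + 1 by omega, pow_succ, ← h.sing_iff.1 hg, pow_orderOf_eq_one, one_mul]
    exact ⟨by rwa [← sq, ← pow_mul], by rwa [← pow_add, ← two_mul]⟩
  rw [← Finset.sum_filter_of_ne (p := fun g => ¬ IsPRegular p g) fun g _ h0 hg => h0 (hθ _ (sq g ▸ isPRegular_pow hg 2)),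
    ← Finset.sum_filter_of_ne (p := fun g => ¬ IsPRegular p g) (f := θ) fun g _ h0 hg => h0 (hθ _ hg)]
  refine Finset.sum_nbij' (fun g => g * g) (fun g => g ^ (k + 1)) ?_ ?_ ?_ ?_ fun _ _ => rfl <;>
    simp only [Finset.mem_filter, Finset.mem_univ, true_and, Finset.coe_filter, Set.mem_ofPred_eq]
  exacts [fun g hg r => hg ((e g hg).1 ▸ isPRegular_pow r _), fun g hg r => hg ((e g hg).2 ▸ sq (g ^ (k + 1)) ▸ isPRegular_pow r 2),
    fun g hg => (e g hg).1, fun g hg => (e g hg).2]

namespace E2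
variable (e : E2 p χ Y δ)
include e

theorem sq : (δ : ℂ) * δ = 1 := by rcases e.sign with rfl | rfl <;> simp

theorem van (hη : η ∈ Y) (hg : IsPRegular p g) : 1 + δ * χ.1 g - δ * η.1 g = 0 := by
  rw [e.reg η hη g hg]; linear_combination -e.sq

theorem l1 [Fintype G] (hη : η ∈ Y) {F : G → ℂ} {c : ℂ} (hF : ∀ g, ¬ IsPRegular p g → F g = c) :
    classInner F (fun _ => 1) + δ * classInner F χ.1 - δ * classInner F η.1 = c := by
  have k : classInner (F - c • (trivChar G).1) ((trivChar G).1 + (δ : ℂ) • χ.1 - (δ : ℂ) • η.1) = 0 := by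
    rw [classInner, Finset.sum_eq_zero, mul_zero]
    intro g _
    by_cases hg : IsPRegular p g
    · exact mul_eq_zero_of_right _ ((congrArg conj (e.van hη hg)).trans (map_zero _))
    · simp [hF g hg, trivChar]
  simp only [H3.inner_sub_left, H3.inner_sub_right, H3.inner_add_right, H3.inner_smul_left, H3.inner_smul_right, inner_irr,
    map_intCast, if_neg e.ne.symm, if_neg fun h : trivChar G = η => e.n1 (h ▸ hη), if_true] at k
  change classInner F (trivChar G).1 + _ - _ = _
  linear_combination k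

theorem exists_mem (h2 : 2 < p) : ∃ η, η ∈ Y := by
  have := e.card
  exact (Nat.card_pos_iff.1 (by omega : 0 < Nat.card Y)).1.elim fun η => ⟨η.1, η.2⟩

theorem deg (hη : η ∈ Y) : (charDegree η.1 : ℤ) = δ + charDegree χ.1 := by
  have := e.reg η hη 1 isPRegular_one
  rw [irr_deg, irr_deg] at this
  exact_mod_cast this

theorem modEq (h : SC p x) : (p : ℤ) ∣ charDegree χ.1 - δ := h.modEq χ.2.isCharacter e.sing

theorem not_dvd (h : SC p x) : ¬ p ∣ charDegree χ.1 := fun d => by
  have := (dvd_sub_right (Int.natCast_dvd_natCast.2 d)).1 (e.modEq h)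
  rcases e.sign with rfl | rfl <;> simp [Int.natCast_dvd, hp.out.ne_one] at this

theorem int (h : SC p x) : ∃ a : G → ℤ, ∀ g, χ.1 g = a g := by
  have k : ∀ σ : ℂ ≃+* ℂ, galIrr σ χ = χ := fun σ => by
    have d : (galIrr σ χ).1 1 = χ.1 1 := (congrArg σ (irr_deg χ)).trans ((map_natCast σ _).trans (irr_deg χ).symm)
    rcases e.all (galIrr σ χ) (dg_congr d ▸ e.not_dvd h) with r | r | r
    · refine absurd (Subtype.ext (funext fun g => σ.injective ?_)) e.ne
      exact (congrFun (congrArg Subtype.val r) g).trans (map_one σ).symm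
    · exact r
    · have := e.deg r
      rw [dg_congr d] at this
      have := e.sign; omega
  choose a ha using fun g => exists_int_of_fixed (χ.2.isCharacter.isIntegral g) fun σ => congrFun (congrArg Subtype.val (k σ)) g
  exact ⟨a, ha⟩

theorem normal (h : SC p x) (h2 : 2 < p) (hk : pPrimeCore p G = ⊥) (hd : charDegree χ.1 = 1) : (zpowers x).Normal := by
  have d := e.modEq h
  obtain rfl : δ = 1 := e.sign.resolve_right fun r => by
    rw [hd, r] at d
    have := Int.le_of_dvd (by simp) d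
    omega
  have m : ∀ g, ¬ IsPRegular p g → g ∈ charKer χ.1 := fun g hg =>
    χ.2.isCharacter.mem_charKer.2 (by rw [e.sing g hg, irr_deg, hd]; simp)
  rw [← h.syl'.eq_of_le (Q := charKer χ.1) (fun g => ⟨1, Subtype.ext ?_⟩) le_top (zpowers_le.2 (m x (h.sing_iff.2 h.o)))]
  · exact χ.2.isClassFunction.charKer_normal
  by_cases hg : IsPRegular p (g : G)
  · simp [mem_bot.1 (hk ▸ e.ker _ hg (χ.2.isCharacter.mem_charKer.1 g.2))]
  · simp [← h.sing_iff.1 hg]

theorem fs [Fintype G] (h : SC p x) (h2 : 2 < p) (hη : η ∈ Y) : fsInd η.1 = fsInd χ.1 := by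
  have k := h.sum_sq h2 fun g hg => e.van hη hg
  have z : ∀ ψ : IrrCharacter G, ψ ≠ trivChar G → ∑ g, ψ.1 g = 0 := fun ψ hψ => by
    have := (card_mul_inner ψ.1 (trivChar G).1).symm
    rw [inner_irr, if_neg hψ] at this
    simpa [trivChar] using this
  simp only [Finset.sum_sub_distrib, Finset.sum_add_distrib, ← Finset.mul_sum, z χ e.ne,
    z η fun r => e.n1 (r ▸ hη)] at k
  rw [fsInd, fsInd]
  linear_combination (Nat.card G : ℂ)⁻¹ * (-δ * k + (∑ g, χ.1 (g * g) - ∑ g, η.1 (g * g)) * e.sq)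

end E2

theorem SC.sing_sq (h : SC p x) (h2 : 2 < p) (hg : ¬ IsPRegular p g) : ¬ IsPRegular p (g * g) :=
  have o := h.sing_iff.1 hg
  (h.of_order o).sing_of_mem (mul_mem (mem_zpowers g) (mem_zpowers g)) fun e =>
    (Nat.le_of_dvd two_pos (o ▸ orderOf_dvd_of_pow_eq_one (by rwa [_root_.sq]))).not_gt h2

open Classical in
theorem SC.split [Fintype G] (h : SC p x) {f : G → ℤ} {c : ℤ} (hf : ∀ g, ¬ IsPRegular p g → f g = c) :
    ∑ g, f g = (nrm (zpowers x)).index * (p - 1 : ℕ) * c + f 1 + ∑ g ∈ (Finset.univ.filter (IsPRegular p)).erase 1, f g := by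
  rw [add_assoc, Finset.add_sum_erase _ _ (by simpa using isPRegular_one), ← Finset.sum_filter_add_sum_filter_not _ (IsPRegular p),
    add_comm, Finset.sum_congr rfl fun g hg => hf g (Finset.mem_filter.1 hg).2, Finset.sum_const, nsmul_eq_mul, ← Nat.cast_mul,
    ← h.card_sing, ← Fintype.card_subtype, ← Nat.card_eq_fintype_card]
  simp only [h.sing_iff]

theorem E2.vals (e : E2 p χ Y (-1)) (h : SC p x) (he : Nat.card (nrm (zpowers x)) = 2 * p) (h3 : 3 < p)
    (hk : pPrimeCore p G = ⊥) {n : ℕ} (hn : n + 1 = p) (hd : charDegree χ.1 = n) :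
    (Nat.card G : ℤ) = n * (n ^ 2 - 1) ∧ (∀ t, orderOf t = 2 → χ.1 t = 0) ∧ ∀ g, IsPRegular p g → g * g ≠ 1 → χ.1 g = 1 := by
  classical
  haveI := Fintype.ofFinite G
  have h2 : 2 < p := by omega
  obtain ⟨a, ha⟩ := e.int h
  obtain ⟨η, hη⟩ := e.exists_mem h2
  obtain ⟨k, hk2⟩ := hp.out.odd_of_ne_two h2.ne'
  have c1 : χ.1 1 = n := by rw [irr_deg, hd]
  have a1 : a 1 = n := by rw [ha] at c1; exact_mod_cast c1
  have as : ∀ g, ¬ IsPRegular p g → a g = -1 := fun g hg => by
    have := e.sing g hg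
    rw [ha] at this; exact_mod_cast this
  have lt : ∀ g, IsPRegular p g → g ≠ 1 → a g < n := fun g hg h1 => by
    have := χ.2.isCharacter.norm_le' c1 g
    rw [ha, Complex.norm_intCast] at this
    have : |a g| ≤ n := by exact_mod_cast this
    refine (le_of_abs_le this).lt_of_ne fun r => h1 (mem_bot.1 (hk ▸ e.ker g hg ?_))
    rw [ha, r, c1]; simp
  have fs : fsInd χ.1 = 1 := (χ.2.fs_cases (funext fun g => by simp [ha])).resolve_right fun r => by
    obtain ⟨m, hm⟩ := even_inner_of_fs (1 : Unit →* G) η.2 isIrrCharacter_one (by rw [e.fs h h2 hη, r, fsInd_one]; simp)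
    have := e.deg hη
    have : charDegree η.1 = 2 * m := by
      simp [classInner, irr_deg] at hm
      exact_mod_cast hm
    omega
  have N0 : (Nat.card G : ℂ) ≠ 0 := Nat.cast_ne_zero.2 Nat.card_pos.ne'
  have S1 : ∑ g, a g = 0 := by
    have := (card_mul_inner χ.1 (trivChar G).1).symm
    rw [inner_irr, if_neg e.ne] at this
    simp only [trivChar, ha, map_one, mul_one, mul_zero] at this
    exact_mod_cast this
  have S2 : ∑ g, a g * a g = Nat.card G := by
    have := (card_mul_inner χ.1 χ.1).symm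
    simp only [χ.2.inner_self, ha, map_intCast, mul_one] at this
    exact_mod_cast this
  have S4 : ∑ g, a (g * g) = Nat.card G := by
    rw [fsInd, inv_mul_eq_iff_eq_mul₀ N0] at fs
    simp only [ha, mul_one] at fs
    exact_mod_cast fs
  obtain ⟨S, A, hS, hA, e1, e2⟩ := χ.2.isCharacter.exists_sym_alt
  have eS : ∀ g, ((a g * a g + a (g * g) : ℤ) : ℂ) = (2 : ℤ) * S g := fun g => by
    push_cast; rw [← ha, ← ha, ← e1, ← e2]; ring
  obtain ⟨r, r1, S3⟩ : ∃ r : ℤ, 1 ≤ r ∧ ∑ g, a g * a g * a g = Nat.card G * r := by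
    have l := e.l1 hη (F := S) (c := 0) fun g hg => by
      have := eS g
      rw [as g hg, as _ (h.sing_sq h2 hg)] at this
      simpa using this
    have i1 : classInner S (fun _ => 1) = 1 := by
      rw [inner_one_right, inv_mul_eq_iff_eq_mul₀ N0]
      have := Finset.sum_congr rfl fun g (_ : g ∈ Finset.univ) => eS g
      rw [← Int.cast_sum, Finset.sum_add_distrib, S2, S4, ← Finset.mul_sum] at this
      push_cast at this
      linear_combination -this / 2
    obtain ⟨s, hs⟩ := hS.inner_nat χ.2.isCharacter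
    obtain ⟨s', hs'⟩ := hS.inner_nat η.2.isCharacter
    obtain ⟨t, ht⟩ := hA.inner_nat χ.2.isCharacter
    rw [i1, hs, hs'] at l
    have l : (1 : ℤ) + -1 * s - -1 * s' = 0 := by exact_mod_cast l
    refine ⟨s + t, by omega, Int.cast_injective (α := ℂ) ?_⟩
    push_cast
    rw [← hs, ← ht, ← H3.inner_add_left, card_mul_inner]
    exact Finset.sum_congr rfl fun g _ => by rw [Pi.add_apply, e1, ha, map_intCast]
  set R := (Finset.univ.filter (IsPRegular p (G := G))).erase 1 with hR
  have mR : ∀ g, g ∈ R ↔ g ≠ 1 ∧ IsPRegular p g := by simp [hR]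
  have eN : (Nat.card G : ℤ) = 2 * (n + 1) * (nrm (zpowers x)).index := by
    rw [← (nrm (zpowers x)).card_mul_index, he, ← hn]; push_cast; ring
  have sp := fun f c => h.split (f := f) (c := c)
  rw [← hR, show p - 1 = n by omega] at sp
  generalize ((nrm (zpowers x)).index : ℤ) = m at eN sp
  have v : ∀ g ∈ R, a g = 0 ∨ a g = 1 := fun g hg => by
    have le : ∀ g ∈ R, a g * (a g - 1) * (a g - n) ≤ 0 := fun g hg =>
      mul_nonpos_of_nonneg_of_nonpos (by rcases le_or_gt (a g) 0 with r | r <;> nlinarith)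
        (sub_nonpos.2 (lt g ((mR g).1 hg).2 ((mR g).1 hg).1).le)
    have k := sp (fun g => a g * a g * a g - (n + 1) * (a g * a g) + n * a g) (-2 * (n + 1)) fun g hg => by rw [as g hg]; ring
    rw [Finset.sum_add_distrib, Finset.sum_sub_distrib, ← Finset.mul_sum, ← Finset.mul_sum, S1, S2, S3, a1] at k
    have z : ∑ g ∈ R, a g * (a g - 1) * (a g - n) = Nat.card G * (r - 1) := by
      rw [Finset.sum_congr rfl (g := fun g => a g * a g * a g - (n + 1) * (a g * a g) + n * a g) fun g _ => by ring]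
      linear_combination -k - n * eN
    have := (Finset.sum_eq_zero_iff_of_nonpos le).1 (le_antisymm (Finset.sum_nonpos le) (z ▸ by positivity)) g hg
    have := lt g ((mR g).1 hg).2 ((mR g).1 hg).1
    simp only [mul_eq_zero] at *
    omega
  have cG : (Nat.card G : ℤ) = n * (n ^ 2 - 1) := by
    have k := sp (fun g => a g * a g - a g) 2 fun g hg => by rw [as g hg]; ring
    rw [Finset.sum_sub_distrib, S1, S2, a1, Finset.sum_eq_zero fun g hg => by rcases v g hg with r | r <;> simp [r]] at k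
    linear_combination (n + 1) * k - n * eN
  have par : ∀ g, 2 ∣ a g * a g + a (g * g) := fun g => int_dvd_of_eq_mul_isIntegral (hS.isIntegral g) (eS g)
  have inv : ∀ g ∈ R, g * g = 1 → a g = 0 := fun g hg r => (v g hg).resolve_right fun r' => by
    have := par g
    rw [r, r', a1] at this
    omega
  have ninv : ∀ g ∈ R, g * g ≠ 1 → a (g * g) = a g := fun g hg r => by
    have := par g
    rcases v g hg with r1 | r1 <;> rcases v (g * g) ((mR _).2 ⟨r, _root_.sq g ▸ isPRegular_pow ((mR g).1 hg).2 2⟩) with r2 | r2 <;>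
      rw [r1, r2] at this <;> omega
  refine ⟨cG, fun t ht => ?_, fun g hg r => ?_⟩
  · rw [ha, inv t ((mR t).2 ⟨H7.ne_one_of_orderOf ht, fun d => (Nat.le_of_dvd two_pos (ht ▸ d)).not_gt h2⟩)
      (by rw [← _root_.sq, ← ht, pow_orderOf_eq_one]), Int.cast_zero]
  have k := sp (fun g => n * (1 - a g * a g) - (a (g * g) - a g)) 0 fun g hg => by rw [as g hg, as _ (h.sing_sq h2 hg)]; ring
  rw [Finset.sum_sub_distrib, Finset.sum_sub_distrib, ← Finset.mul_sum, Finset.sum_sub_distrib, S1, S2, S4, mul_one, a1,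
    Finset.sum_const, Finset.card_univ, ← Nat.card_eq_fintype_card, nsmul_one] at k
  have m : g ∈ R := (mR g).2 ⟨fun r' => r (by simp [r']), hg⟩
  have := (Finset.sum_eq_zero_iff_of_nonneg (f := fun g => n * (1 - a g * a g) - (a (g * g) - a g)) fun g hg => by
    by_cases r : g * g = 1
    · simp [inv g hg r, r, a1]
    · rcases v g hg with r' | r' <;> simp [ninv g hg r, r']).1 (by linear_combination -k - cG) g m
  rw [ninv g m r] at this
  rw [ha, (v g m).resolve_left fun r' => by rw [r'] at this; omega, Int.cast_one]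

theorem E2.sl2 (e : E2 p χ Y (-1)) (h : SC p x) (he : Nat.card (nrm (zpowers x)) = 2 * p) (h3 : 3 < p)
    (hk : pPrimeCore p G = ⊥) {n : ℕ} (hn : n + 1 = p) (hd : charDegree χ.1 = n) :
    (∀ t g : G, orderOf t = 2 → Commute g t → g * g = 1) ∧
      ∃ k, n = 2 ^ k ∧ Nonempty (G ≃* SL(2, GaloisField 2 k)) := by
  obtain ⟨cG, v0, v1⟩ := e.vals h he h3 hk hn hd
  have h2 : 2 < p := by omega
  have rg : ∀ t g : G, orderOf t = 2 → Commute g t → IsPRegular p g := fun t g ht c => by_contra fun hg => by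
    have s := h.of_order (h.sing_iff.1 hg)
    have := s.o ▸ ht ▸ orderOf_dvd_of_mem_zpowers (s.c.le (mem_centralizer_singleton_iff.2 c.symm.eq))
    exact h2.ne ((Nat.prime_dvd_prime_iff_eq Nat.prime_two hp.out).1 this)
  have ex : ∀ t g : G, orderOf t = 2 → Commute g t → g * g = 1 := fun t g ht c => by_contra fun r => by
    have o : 2 < orderOf g := lt_of_not_ge fun l => r (by
      have := orderOf_pos g
      rw [← _root_.sq, ← orderOf_dvd_iff_pow_eq_one]
      interval_cases orderOf g <;> simp)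
    have tt : t * t = 1 := by rw [← _root_.sq, ← ht, pow_orderOf_eq_one]
    obtain d | ⟨q, hq, d, oq⟩ := Nat.four_dvd_or_exists_odd_prime_and_dvd_of_two_lt o
    · have o4 := orderOf_pow_orderOf_div (orderOf_pos g).ne' d
      have c' := c.pow_left (orderOf g / 4)
      generalize g ^ (orderOf g / 4) = w at o4 c'
      have o2 : orderOf (w * w) = 2 := by rw [← _root_.sq, orderOf_pow, o4]; rfl
      obtain ⟨S, A, hS, hA, e1, e2⟩ := χ.2.isCharacter.exists_sym_alt
      have := int_dvd_of_eq_mul_isIntegral (a := 1) (b := 2) (hS.isIntegral w) (by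
        have := e1 w
        have := e2 w
        rw [v0 _ o2, v1 w (rg t w ht c') (H7.ne_one_of_orderOf o2)] at *
        push_cast; linear_combination -‹S w + A w = _› - ‹S w - A w = _›)
      omega
    · have oq' := orderOf_pow_orderOf_div (orderOf_pos g).ne' d
      have c' := c.pow_left (orderOf g / q)
      generalize g ^ (orderOf g / q) = w at oq' c'
      have := χ.2.isGen.dvd_sub hq c'.eq (k := 1) (a := 1) (b := 0) (by rw [pow_one, ← oq', pow_orderOf_eq_one])
        (by
          rw [v1 _ (rg t _ ht (c'.mul_left (Commute.refl t))) fun r => ?_, Int.cast_one]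
          rw [c'.symm.mul_mul_mul_comm, tt, mul_one, ← _root_.sq, ← orderOf_dvd_iff_pow_eq_one, oq',
            Nat.prime_dvd_prime_iff_eq hq Nat.prime_two] at r
          exact absurd oq (by simp [r])) (by simp [v0 t ht])
      exact hq.ne_one (by simpa [Int.natCast_dvd] using this)
  obtain ⟨m, hm⟩ : ∃ m, m + 1 = n ^ 2 := ⟨n ^ 2 - 1, Nat.sub_add_cancel (Nat.one_le_pow _ _ (by omega))⟩
  have cG : Nat.card G = n * m := by zify at hm ⊢; rw [cG, ← hm]; ring
  have nk : n = 2 ^ n.primeFactorsList.length := Nat.eq_prime_pow_of_unique_prime_dvd (by omega) fun {q} hq d => by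
    by_contra q2
    haveI := Fact.mk hq
    obtain ⟨w, hw⟩ := exists_prime_orderOf_dvd_card' q (cG ▸ d.mul_right m)
    have := χ.2.isGen.dvd_sub_deg hq (x := w) (k := 1) (a := 1) (b := n) (by rw [pow_one, ← hw, pow_orderOf_eq_one])
      (by
        rw [v1 w (fun d' => ?_) fun r => q2 ?_, Int.cast_one]
        · have := Nat.le_of_dvd hq.pos (hw ▸ d')
          have := Nat.le_of_dvd (by omega) d
          omega
        · rwa [← _root_.sq, ← orderOf_dvd_iff_pow_eq_one, hw, Nat.prime_dvd_prime_iff_eq hq Nat.prime_two] at r)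
      (by simp [irr_deg, hd])
    exact hq.ne_one (by simpa [Int.natCast_dvd] using (dvd_sub_left (Int.natCast_dvd_natCast.2 d)).1 this)
  generalize n.primeFactorsList.length = k at nk
  have cm : n.Coprime m := by rw [← Nat.coprime_pow_left_iff two_pos, ← hm]; simp
  obtain ⟨T⟩ : Nonempty (Sylow 2 G) := inferInstance
  have cT : Nat.card T = n := by
    have i := (T : Subgroup G).card_mul_index.trans cG
    obtain ⟨j, hj⟩ := T.isPGroup'.exists_card_eq
    refine Nat.dvd_antisymm (Nat.Coprime.dvd_of_dvd_mul_right ?_ (Dvd.intro _ i)) (Nat.Coprime.dvd_of_dvd_mul_right ?_ (i ▸ dvd_mul_right n m))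
    · refine hj ▸ Nat.Coprime.pow_left _ (cm.coprime_dvd_left (nk ▸ dvd_pow_self 2 ?_))
      rintro rfl; omega
    · exact nk ▸ Nat.Coprime.pow_left _ (Nat.prime_two.coprime_iff_not_dvd.2 T.not_dvd_index)
  have eT : ∀ g ∈ T, g * g = 1 := fun g hg => by
    by_cases h1 : g = 1
    · simp [h1]
    obtain ⟨j, hj⟩ := IsPGroup.iff_orderOf.1 T.isPGroup' ⟨g, hg⟩
    rw [← orderOf_coe] at hj
    exact ex _ g (orderOf_pow_orderOf_div (orderOf_pos g).ne' (hj ▸ dvd_pow_self 2 fun r => h1 (by simpa [r] using hj)))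
      ((Commute.refl g).pow_right _)
  have cmm : ∀ H : Subgroup G, (∀ g ∈ H, g * g = 1) → ∀ a ∈ H, ∀ b ∈ H, a * b = b * a := fun H hH a ha b hb => by
    rw [← mul_inv_eq_one, mul_inv_rev, inv_eq_of_mul_eq_one_left (hH a ha), inv_eq_of_mul_eq_one_left (hH b hb), hH _ (mul_mem ha hb)]
  obtain ⟨j, -, hj, ⟨φ⟩⟩ := sl2_of_ac (fun t ht => ⟨⟨fun a b => Subtype.ext (cmm _ (fun g hg => ex t g ht
    (mem_centralizer_singleton_iff.1 hg)) a a.2 b b.2)⟩⟩) T (fun c => by
      obtain ⟨g, hg⟩ := c.exists_ofOrder_eq_natCard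
      have := Nat.le_of_dvd two_pos (hg ▸ orderOf_dvd_of_pow_eq_one (x := g) (Subtype.ext (by simpa [_root_.sq] using eT g g.2)))
      omega) (fun c => by
      have i := (T : Subgroup G).card_mul_index.trans cG
      have := χ.2.dg_dvd_index T (cmm _ eT)
      rw [cT] at i
      rw [hd, Nat.eq_of_mul_eq_mul_left (by omega) i] at this
      have := cm.eq_one_of_dvd this
      omega) (eq_bot_iff.2 fun z hz => by_contra fun z1 => by
      have := h.cen1_eq (h.c.le (mem_centralizer_singleton_iff.2 (mem_center_iff.1 hz x).symm)) z1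
      have l : Nat.card G ≤ p := by
        rw [← h.card, ← this, ← card_top]
        exact card_le_of_le fun g _ => mem_centralizer_singleton_iff.2 (mem_center_iff.1 hz g)
      nlinarith)
  obtain ⟨ψ⟩ := H8.psl_equiv_sl (GaloisField 2 j)
  exact ⟨ex, j, cT.symm.trans hj, ⟨φ.trans ψ⟩⟩

end H9
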