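import Cfsg.Agent.H9.Pr2

/-! Permutation groups of degree `p` and `2p` with a Sylow normalizer of order `2p`. -/

set_option autoImplicit false
set_option linter.style.haveILetI false
set_option linter.unusedSectionVars false

namespace H9
open Cfsg H3 MonoidAlgebra Subgroup Module MulAction
open scoped ComplexConjugate Pointwise MatrixGroups

variable {p : ℕ} {G : Type*} [Group G] [Finite G] [hp : Fact p.Prime] {x g : G}
  {χ η : IrrCharacter G} {Y : Set (IrrCharacter G)} {δ : ℤ}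

theorem deg_two {ψ : G → ℂ} (hψ : IsCharacter G ψ) [Fintype G] (ne : χ ≠ η) (ha : classInner ψ χ.1 ≠ 0) (hb : classInner ψ η.1 ≠ 0) :
    charDegree χ.1 + charDegree η.1 ≤ charDegree ψ := by
  have h := hψ.sub_of_inner_ne_zero χ.2 ha
  have := h.deg_le_of_inner_ne_zero η.2 (by rwa [H3.inner_sub_left, inner_irr, if_neg ne, sub_zero]) (irr_deg η) h.deg
  have e := h.deg
  rw [Pi.sub_apply, hψ.deg, irr_deg, sub_eq_iff_eq_add] at e
  have : charDegree ψ = charDegree (ψ - χ.1) + charDegree χ.1 := by exact_mod_cast e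
  omega

theorem exists_sc (P : Sylow p G) (h2 : 2 < p) (hd : p ∣ Nat.card G) (hN : Nat.card (nrm (P : Subgroup G)) = 2 * p)
    (hk : pPrimeCore p G = ⊥) : (P : Subgroup G).Normal ∨ ∃ x, SC p x ∧ zpowers x = (P : Subgroup G) := by
  have c : Nat.card P = p := by
    obtain ⟨j, hj⟩ := P.isPGroup'.exists_card_eq
    refine Nat.dvd_antisymm (Nat.Coprime.dvd_of_dvd_mul_left ?_ ((card_dvd_of_le le_normalizer).trans hN.dvd)) (P.dvd_card_of_dvd_card hd)
    exact hj ▸ ((Nat.coprime_primes hp.out Nat.prime_two).2 h2.ne').pow_left _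
  obtain ⟨x, hx⟩ := exists_prime_orderOf_dvd_card' (G := P) p c.symm.dvd
  have e := zpowers_eq_of_card_p c x.2 fun e => H7.ne_one_of_orderOf hx (Subtype.ext e)
  have l : (P : Subgroup G) ≤ cen P := by rw [← e, cen_zpowers]; exact H7.zpowers_le_cen1 _
  obtain ⟨k, hk'⟩ := card_dvd_of_le l
  have d := card_dvd_of_le (centralizer_le_normalizer ((P : Subgroup G) : Set G))
  rw [hk', c, hN, mul_comm 2, mul_dvd_mul_iff_left hp.out.ne_zero, Nat.dvd_prime Nat.prime_two] at d
  obtain rfl | rfl := d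
  · refine Or.inr ⟨x, ⟨(orderOf_coe x).trans hx, ?_⟩, e⟩
    exact (cen_zpowers _).symm.trans (by rw [e]; exact (eq_of_le_of_card_ge l (by omega)).symm)
  have n := (H7.npc_burnside (H1B.syl_top P) (inf_le_right.trans (eq_of_le_of_card_ge
    (centralizer_le_normalizer ((P : Subgroup G) : Set G)) (hN.trans (hk'.trans (by omega)).symm).le).ge)).sup (H1B.syl_top P)
  rw [← H7.pPrimeCore_eq, hk, bot_sup_eq] at n
  exact Or.inl (n ▸ inferInstance)

section perm
variable {α : Type*} [Finite α] [MulAction G α]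

theorem trans_of_normal [FaithfulSMul G α] [IsPreprimitive G α] (N : Subgroup G) [N.Normal] (h : N ≠ ⊥) : Nat.card α ∣ Nat.card N := by
  haveI : IsPretransitive N α := IsQuasiPreprimitive.isPretransitive_of_normal fun e => h (eq_bot_iff.2 fun g hg =>
    FaithfulSMul.eq_of_smul_eq_smul (α := α) fun a => (e.ge trivial ⟨g, hg⟩).trans (one_smul G a).symm)
  cases isEmpty_or_nonempty α with
  | inl _ => exact absurd (eq_bot_iff.2 fun g _ => FaithfulSMul.eq_of_smul_eq_smul (α := α) isEmptyElim) h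
  | inr a => exact index_stabilizer_of_transitive N a.some ▸ index_dvd_card _

theorem core_bot [FaithfulSMul G α] [IsPreprimitive G α] (h : p ∣ Nat.card α) : pPrimeCore p G = ⊥ :=
  by_contra fun e => not_dvd_pPrimeCore (h.trans (trans_of_normal _ e))

theorem SC.reg_of_fix [IsPretransitive G α] (h : SC p x) (hd : p ∣ Nat.card α) {a : α} (ha : g • a = a) : IsPRegular p g := fun d => by
  have := mul_dvd_mul (d.trans (orderOf_dvd_natCard (stabilizer G a) ha)) (index_stabilizer_of_transitive G a ▸ hd)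
  rw [card_mul_index, h.card_eq] at this
  exact h.not_dvd_index (Nat.dvd_of_mul_dvd_mul_left hp.out.pos this)

/-- `π - 1` -/
noncomputable abbrev pm (α : Type*) [MulAction G α] (g : G) : ℂ := (Nat.card (fixedBy α g) : ℂ) - 1

theorem pm_spec [IsPretransitive G α] [Nonempty α] [Fintype G] :
    IsCharacter G (pm α) ∧ classInner (pm α) (fun _ : G => 1) = 0 ∧ charDegree (pm (G := G) α) + 1 = Nat.card α := by
  have h1 := inner_fixedBy_one (G := G) α
  rw [Nat.card_eq_one_iff_unique.2 ⟨(pretransitive_iff_subsingleton_quotient G α).1 inferInstance, ⟨Quotient.mk _ (Classical.arbitrary α)⟩⟩, Nat.cast_one] at h1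
  have : IsCharacter G (pm α) := (isCharacter_fixedBy (G := G) α).sub_of_inner_ne_zero isIrrCharacter_one (h1.trans_ne one_ne_zero)
  refine ⟨this, (H3.inner_sub_left _ _ _).trans (by rw [h1, inner_one_one, sub_self]), Nat.cast_injective (R := ℂ) ?_⟩
  push_cast; rw [← this.deg]; simp

theorem E2.perm [IsPretransitive G α] [Nonempty α] [Fintype G] (e : E2 p χ Y δ) (h : SC p x) (hd : p ∣ Nat.card α) (hη : η ∈ Y) :
    ∃ r s : ℕ, classInner (pm α) χ.1 = r ∧ classInner (pm α) η.1 = s ∧ δ * r - δ * s = -1 := by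
  obtain ⟨c, i, -⟩ := pm_spec (G := G) (α := α)
  obtain ⟨r, hr⟩ := c.inner_nat χ.2.isCharacter
  obtain ⟨s, hs⟩ := c.inner_nat η.2.isCharacter
  have := e.l1 hη (F := pm α) (c := -1) fun g hg => by
    rw [pm, Finite.card_eq_zero_iff.2 ⟨fun a => hg (h.reg_of_fix hd a.2)⟩]; simp
  rw [i, hr, hs, zero_add] at this
  exact ⟨r, s, hr, hs, by exact_mod_cast this⟩

theorem prime_deg [FaithfulSMul G α] [IsPretransitive G α] (h3 : 3 < p) (hα : Nat.card α = p) (P : Sylow p G)
    (hN : Nat.card (nrm (P : Subgroup G)) = 2 * p) (hd : p ∣ Nat.card G) :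
    (P : Subgroup G).Normal ∨ ∃ k, p = 2 ^ k + 1 ∧ Nonempty (G ≃* SL(2, GaloisField 2 k)) := by
  haveI := Fintype.ofFinite G
  haveI : Nonempty α := (Nat.card_pos_iff.1 (hα ▸ hp.out.pos)).1
  haveI := IsPreprimitive.of_prime_card (G := G) (hα ▸ hp.out)
  have hk := core_bot (G := G) hα.symm.dvd
  obtain h | ⟨x, h, hx⟩ := exists_sc P (by omega) hd hN hk
  · exact Or.inl h
  rw [← hx] at hN ⊢
  obtain ⟨χ, Y, δ, e⟩ := h.exists_e2 hN h3
  obtain ⟨η, hη⟩ := e.exists_mem (by omega)
  obtain ⟨r, s, hr, hs, k⟩ := e.perm h hα.symm.dvd hη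
  obtain ⟨c, -, d⟩ := pm_spec (G := G) (α := α)
  have m := e.modEq h
  have := (charDegree_ne_zero χ.2).pos
  obtain rfl | rfl := e.sign
  · have := c.deg_le_of_inner_ne_zero η.2 (hs ▸ Nat.cast_ne_zero.2 (by omega)) (irr_deg η) c.deg
    have := e.deg hη
    have := Int.eq_zero_of_dvd_of_nonneg_of_lt (by omega) (by omega) m
    exact Or.inl (e.normal h (by omega) hk (by omega))
  · have := c.deg_le_of_inner_ne_zero χ.2 (hr ▸ Nat.cast_ne_zero.2 (by omega)) (irr_deg χ) c.deg
    have := Int.le_of_dvd (by omega) m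
    obtain ⟨-, k, hk, i⟩ := e.sl2 h hN h3 hk (n := charDegree χ.1) (by omega) rfl
    exact Or.inr ⟨k, by omega, i⟩

theorem card_inv (h : ∀ t g : G, orderOf t = 2 → Commute g t → g * g = 1) (T : Sylow 2 G) :
    Nat.card T - 1 ∣ Nat.card {t : G // orderOf t = 2} := by
  have eT : ∀ T : Sylow 2 G, ∀ g ∈ T, g * g = 1 := fun T g hg => by
    by_cases h1 : g = 1
    · simp [h1]
    obtain ⟨j, hj⟩ := IsPGroup.iff_orderOf.1 T.isPGroup' ⟨g, hg⟩
    rw [← orderOf_coe] at hj
    exact h _ g (orderOf_pow_orderOf_div (orderOf_pos g).ne' (hj ▸ dvd_pow_self 2 fun r => h1 (by simpa [r] using hj)))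
      ((Commute.refl g).pow_right _)
  have k : ∀ T : Sylow 2 G, ∀ t ∈ T, orderOf t = 2 → cen1 t = T := fun T t ht o =>
    T.is_maximal' (fun g => ⟨1, Subtype.ext (by simpa [_root_.sq] using h t g o (mem_centralizer_singleton_iff.1 g.2))⟩) fun a ha => by
      rw [mem_centralizer_singleton_iff, ← mul_inv_eq_one, mul_inv_rev, inv_eq_of_mul_eq_one_left (eT T a ha),
        inv_eq_of_mul_eq_one_left (eT T t ht), eT T _ (mul_mem ha ht)]
  choose f hf using fun t : {t : G // orderOf t = 2} =>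
    (IsPGroup.of_card (n := 1) (by rw [Nat.card_zpowers, t.2, pow_one]) : IsPGroup 2 (zpowers t.1)).exists_le_sylow
  refine Dvd.intro_left _ (card_eq_mul_fib f fun S => ?_).symm
  classical
  haveI := Fintype.ofFinite S
  rw [show Nat.card T - 1 = Nat.card {a : S // ¬ a = 1} by
    rw [Nat.card_eq_fintype_card (α := {a : S // _}), Fintype.card_subtype_compl, ← Nat.card_eq_fintype_card,
      T.card_eq_multiplicity.trans S.card_eq_multiplicity.symm, Fintype.card_unique]; rfl]
  have o : ∀ a : {a : S // ¬ a = 1}, orderOf (a.1 : G) = 2 := fun a =>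
    orderOf_eq_prime (by rw [_root_.sq, eT S _ a.1.2]) fun e => a.2 (Subtype.ext e)
  exact Nat.card_congr ⟨fun a => ⟨⟨a.1.1, (congrArg (fun S : Sylow 2 G => (S : Subgroup G)) a.2).le (hf a.1 (mem_zpowers _))⟩, fun e =>
    H7.ne_one_of_orderOf a.1.2 (Subtype.mk.inj e)⟩, fun a => ⟨⟨a.1.1, o a⟩, Sylow.ext
      ((k _ _ (hf ⟨_, o a⟩ (mem_zpowers _)) (o a)).symm.trans (k _ _ a.1.2 (o a)))⟩, fun _ => rfl, fun _ => rfl⟩

theorem two_deg [FaithfulSMul G α] [IsPreprimitive G α] (h3 : 3 < p) (hα : Nat.card α = 2 * p) (P : Sylow p G)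
    (hN : Nat.card (nrm (P : Subgroup G)) = 2 * p) (hi : ¬ IsIrrCharacter G (pm α)) :
    p = 5 ∧ Nat.card G = 60 ∧ IsSimpleGroup G := by
  classical
  haveI := Fintype.ofFinite G
  obtain ⟨a⟩ : Nonempty α := (Nat.card_pos_iff.1 (by omega)).1
  haveI := Nonempty.intro a
  have pα : p ∣ Nat.card α := hα ▸ dvd_mul_left p 2
  have hk := core_bot (G := G) pα
  have iH := index_stabilizer_of_transitive G a
  have pG := pα.trans (iH ▸ index_dvd_card _)
  have nn : ¬ (P : Subgroup G).Normal := fun n => by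
    obtain ⟨j, hj⟩ := P.isPGroup'.exists_card_eq
    have := (Nat.prime_dvd_prime_iff_eq Nat.prime_two hp.out).1 (Nat.prime_two.dvd_of_dvd_pow
      (hj ▸ (Dvd.intro _ hα.symm).trans (trans_of_normal (α := α) _ (P.ne_bot_of_dvd_card pG))))
    omega
  obtain ⟨x, h, hx⟩ := (exists_sc P (by omega) pG hN hk).resolve_left nn
  rw [← hx] at hN nn
  obtain ⟨χ, Y, δ, e⟩ := h.exists_e2 hN h3
  obtain ⟨η, η', hη, hη', ne⟩ := (Set.one_lt_ncard_iff (Set.toFinite Y)).1 (show 1 < Y.ncard by have := e.card; rw [Nat.card_coe_set_eq] at this; omega)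
  obtain ⟨r, s, hr, hs, k⟩ := e.perm h pα hη
  obtain ⟨r', s', hr', hs', k'⟩ := e.perm h pα hη'
  obtain rfl : r = r' := by exact_mod_cast hr.symm.trans hr'
  obtain ⟨c, i, d⟩ := pm_spec (G := G) (α := α)
  have m := e.modEq h
  have := (charDegree_ne_zero χ.2).pos
  have := e.deg hη
  have := e.deg hη'
  obtain rfl | rfl := e.sign
  · have := deg_two c ne (hs ▸ Nat.cast_ne_zero.2 (by omega)) (hs' ▸ Nat.cast_ne_zero.2 (by omega))
    have := Int.eq_zero_of_dvd_of_nonneg_of_lt (by omega) (by omega) m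
    exact absurd (e.normal h (by omega) hk (by omega)) nn
  have r0 : classInner (pm α) χ.1 ≠ 0 := hr ▸ Nat.cast_ne_zero.2 (by omega)
  have := c.deg_le_of_inner_ne_zero χ.2 r0 (irr_deg χ) c.deg
  have := Int.le_of_dvd (by omega) m
  have : charDegree χ.1 + 1 ≠ 2 * p := fun r => hi (c.eq_of_inner_ne_zero χ.2 r0 (by rw [c.deg, irr_deg]; congr 1; omega) ▸ χ.2)
  have := Int.eq_zero_of_dvd_of_nonneg_of_lt (by omega) (by omega) (dvd_sub m (dvd_refl _))
  obtain ⟨n, hn⟩ : ∃ n, charDegree χ.1 = n := ⟨_, rfl⟩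
  have np : n + 1 = p := by omega
  obtain rfl : r = 1 := by_contra fun r1 => by
    have c' := c.sub_of_inner_ne_zero χ.2 r0
    have q : ∀ η ∈ Y, ∀ s : ℕ, classInner (pm α) η.1 = s → s ≠ 0 → classInner (pm α - χ.1) η.1 ≠ 0 := fun η hη s hs s0 => by
      rwa [H3.inner_sub_left, inner_irr, if_neg fun r : χ = η => e.nχ (r ▸ hη), hs, sub_zero, Nat.cast_ne_zero]
    have := deg_two c' ne (q η hη s hs (by omega)) (q η' hη' s' hs' (by omega))
    have := e.card
    have e := c'.deg
    rw [Pi.sub_apply, c.deg, irr_deg, sub_eq_iff_eq_add] at e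
    have : charDegree (pm (G := G) α) = charDegree (pm α - χ.1) + charDegree χ.1 := by exact_mod_cast e
    omega
  obtain ⟨cG, v0, v1⟩ := e.vals h hN h3 hk np hn
  obtain ⟨ex, k, hk2, ⟨φ⟩⟩ := e.sl2 h hN h3 hk np hn
  set H := stabilizer G a
  have iv : Nat.card {t : H // orderOf t = 2} + 1 = n := by
    have i1 : classInner (fun g : G => (Nat.card (fixedBy α g) : ℂ)) χ.1 = 1 := by
      have := inner_irr (trivChar G) χ
      rw [if_neg e.ne.symm] at this
      rw [← Nat.cast_one, ← hr, ← sub_zero (classInner _ χ.1), ← this, ← H3.inner_sub_left]; rfl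
    rw [card_fixedBy_eq_indFun α a, inner_indFun_left _ _ χ.2.isClassFunction, ← H3.inner_conj_symm, map_eq_one_iff _ (starRingEnd ℂ).injective,
      inner_one_right, inv_mul_eq_one₀ (Nat.cast_ne_zero.2 Nat.card_pos.ne'),
      Finset.sum_congr rfl (g := fun g : H => 1 - (if orderOf g = 2 then 1 else 0) + if g = 1 then (n - 1 : ℂ) else 0) fun g _ => by
        by_cases g1 : g = 1
        · simp [g1, irr_deg, hn]
        by_cases g2 : orderOf g = 2
        · simp [g1, g2, v0 g ((orderOf_coe g).trans g2)]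
        · simp [g1, g2, v1 g (h.reg_of_fix pα g.2) fun r => g2 (orderOf_eq_prime (Subtype.ext (by simpa [_root_.sq] using r)) g1)],
      Finset.sum_add_distrib, Finset.sum_sub_distrib] at i1
    simp only [Finset.sum_const, Finset.card_univ, Finset.sum_boole, Finset.sum_ite_eq', Finset.mem_univ, if_true, nsmul_one,
      ← Fintype.card_subtype, ← Nat.card_eq_fintype_card] at i1
    apply Nat.cast_injective (R := ℂ)
    push_cast; linear_combination i1
  obtain ⟨T⟩ : Nonempty (Sylow 2 H) := inferInstance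
  have dv := card_inv (fun t g : H => fun ht c => Subtype.ext (ex t g ((orderOf_coe t).trans ht) (congrArg Subtype.val c))) T
  obtain ⟨m, rfl⟩ : ∃ m, n = m + 1 := ⟨n - 1, by omega⟩
  have cH : 2 * Nat.card T * (T : Subgroup H).index = (m + 1) * m := by
    have := H.card_mul_index
    rw [iH, hα, ← np, ← (T : Subgroup H).card_mul_index] at this
    zify at this ⊢
    refine mul_left_cancel₀ (show (m + 1 + 1 : ℤ) ≠ 0 by omega) ?_
    push_cast at cG
    linear_combination this + cG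
  have cT : 2 * Nat.card T = m + 1 := by
    obtain ⟨j, hj⟩ := T.isPGroup'.exists_card_eq
    refine Nat.dvd_antisymm (Nat.Coprime.dvd_of_dvd_mul_right ?_ (Dvd.intro _ cH)) (Nat.Coprime.dvd_of_dvd_mul_right ?_ (cH ▸ dvd_mul_right _ m))
    · rw [hj, ← pow_succ']
      refine Nat.Coprime.pow_left _ (Nat.Coprime.coprime_dvd_left (k := m + 1) (hk2 ▸ dvd_pow_self 2 ?_) (by simp))
      rintro rfl; omega
    · exact hk2 ▸ Nat.Coprime.pow_left _ (Nat.prime_two.coprime_iff_not_dvd.2 T.not_dvd_index)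
  have : Nat.card T - 1 = 1 := Nat.dvd_one.1 ((Nat.dvd_add_right (dvd_mul_left _ 2)).1 (by convert dv using 1; omega))
  obtain rfl : m = 3 := by omega
  refine ⟨np.symm, by zify; rw [cG]; rfl, ?_⟩
  obtain ⟨ψ⟩ := H8.psl_equiv_sl (GaloisField 2 k)
  haveI := Matrix.ProjectiveSpecialLinearGroup.rank_two_simple (F := GaloisField 2 k) (by
    rw [GaloisField.card _ _ (by rintro rfl; omega), ← hk2])
  exact (φ.trans ψ.symm).isSimpleGroup

end perm
end H9
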