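import Cfsg.Agent.H9.Pr1
import Cfsg.Agent.H3.Det

/-! Characters of small degree of groups with a Sylow subgroup of prime order. -/

set_option autoImplicit false
set_option linter.style.haveILetI false
set_option linter.unusedSectionVars false

namespace H9
open Cfsg H3 MonoidAlgebra Subgroup Module
open scoped ComplexConjugate Pointwise

variable {p : ℕ} {M : Ideal AlgInt} {G : Type*} [Group G] [Finite G] [hp : Fact p.Prime] {x g : G} {P : Subgroup G}
  {χ η : IrrCharacter G} {ψ : G → ℂ}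

theorem sum_deg_le [Fintype G] (hψ : IsCharacter G ψ) (s : Finset (IrrCharacter G)) (h : ∀ χ ∈ s, classInner ψ χ.1 ≠ 0) :
    ∑ χ ∈ s, charDegree χ.1 ≤ charDegree ψ := by
  obtain ⟨n, h1, h2⟩ := hψ.exists_coeff
  have := congrFun h2 1
  simp only [hψ.deg, Finset.sum_apply, Pi.smul_apply, irr_deg, smul_eq_mul] at this
  rw [show charDegree ψ = ∑ χ, n χ * charDegree χ.1 by exact_mod_cast this]
  exact (Finset.sum_le_sum fun χ hχ => Nat.le_mul_of_pos_left _ (Nat.pos_of_ne_zero fun e => h χ hχ (by simp [h1, e]))).trans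
    (Finset.sum_le_sum_of_subset (Finset.subset_univ _))

theorem res_inner_zero [Fintype G] [Fintype P] (hψ : IsCharacter G ψ) (h : classInner ψ χ.1 ≠ 0)
    (h0 : classInner (fun u : P => ψ u) (fun _ => 1) = 0) : classInner (fun u : P => χ.1 u) (fun _ => 1) = 0 := by
  obtain ⟨a, ha⟩ := ((hψ.sub_of_inner_ne_zero χ.2 h).res P).inner_nat isCharacter_one
  obtain ⟨b, hb⟩ := (χ.2.isCharacter.res P).inner_nat isCharacter_one
  have : ((a + b : ℕ) : ℂ) = 0 := by
    rw [Nat.cast_add, ← ha, ← hb, ← H3.inner_add_left, ← h0]; congr 1; ext; simp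
  rw [hb, (Nat.add_eq_zero_iff.1 (Nat.cast_eq_zero.1 this)).2, Nat.cast_zero]

theorem FA.deg_os {A : Type*} [Group A] [Fintype A] {E : Subgroup (MulAut A)} (h : FA E) {l : A →* ℂˣ} (hl : l ≠ 1) {φ : A → ℂ}
    (hφ : IsCharacter A φ) {c : ℤ} (e : ∀ u, u ≠ 1 → φ u = c * os E l u) :
    ∃ s : ℕ, classInner φ (fun _ => 1) = s ∧ 0 ≤ c + s ∧ (charDegree φ : ℤ) = c * Nat.card E + Nat.card A * s := by
  classical
  have k : ∀ m : A →* ℂˣ, Nat.card A * (classInner φ (lf m) - c * if LC E l m then 1 else 0) = φ 1 - c * Nat.card E := fun m => by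
    rw [← h.inner_os hl, ← H3.inner_smul_left, ← H3.inner_sub_left, card_mul_inner, Finset.sum_eq_single 1 (fun u _ hu => by simp [e u hu])
      (by simp)]
    simp [os_one]
  obtain ⟨s, hs⟩ := hφ.inner_nat (lf_irr 1).isCharacter
  obtain ⟨t, ht⟩ := hφ.inner_nat (lf_irr l).isCharacter
  have k1 := k 1
  have k2 := k l
  rw [if_neg fun e => hl (lc_one.1 e.symm), hs] at k1
  rw [if_pos (LC.refl l), ht, ← k1, mul_right_inj' (Nat.cast_ne_zero.2 Nat.card_pos.ne')] at k2
  rw [hφ.deg] at k1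
  have k2 : (t : ℤ) - c * 1 = s - c * 0 := by exact_mod_cast k2
  exact ⟨s, hs, by omega, Int.cast_injective (α := ℂ) (by push_cast; linear_combination -k1)⟩

theorem mem_nrm_of_card_p (hP : Nat.card P = p) {u n : G} (hu : u ∈ P) (h1 : u ≠ 1) (h : n * u * n⁻¹ ∈ P) : n ∈ nrm P :=
  mem_nrm_of_conj fun x hx => by
    obtain ⟨k, rfl⟩ := (zpowers_eq_of_card_p hP hu h1).ge hx
    rw [← conj_zpow]; exact zpow_mem h k

theorem sum_aE [Fintype P] [Fintype (aE P.subtype (nrm P))] (hP : Nat.card P = p) (h : FA (aE P.subtype (nrm P))) {x : P} (hx : x ≠ 1)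
    [DecidablePred fun u : P => IsConj (u : G) x] (φ : P → ℂ) : ∑ σ : aE P.subtype (nrm P), φ (σ.1 x) = ∑ u ∈ Finset.univ.filter fun u : P => IsConj (u : G) x, φ u := by
  refine Finset.sum_bij (fun σ _ => σ.1 x) (fun σ _ => ?_) (fun σ _ τ _ e => ?_) (fun u hu => ?_) fun _ _ => rfl
  · obtain ⟨t, -, ht⟩ := σ.2
    exact Finset.mem_filter.2 ⟨Finset.mem_univ _, (isConj_iff.2 ⟨t, (ht x).symm⟩).symm⟩
  · exact (inv_mul_eq_one.1 (Subtype.ext (h.free _ (σ⁻¹ * τ).2 x hx (by simp [← e])))).symm ▸ rfl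
  · obtain ⟨n, hn⟩ := isConj_iff.1 (Finset.mem_filter.1 hu).2.symm
    have := mem_nrm_of_card_p hP x.2 (by simpa using hx) (hn ▸ u.2)
    obtain ⟨σ, hσ⟩ := exists_aut P.subtype_injective (range_subtype _) this
    exact ⟨⟨σ, n, this, hσ⟩, Finset.mem_univ _, Subtype.ext ((hσ x).trans hn)⟩

theorem D1.exc_apply [PMod p M] [Fintype G] {B : Bl M G} {c : Bl M (cen P)} {θ : IrrCharacter (cen P)} (h : D1 B P c θ)
    {ζ : (P →* ℂˣ) → IrrCharacter G} {ε : ℤ} {a : IrrCharacter G → ℤ}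
    (f : Full B P c.E P.subtype (aE P.subtype (nrm P ⊓ stab c.E)) (dΦ c θ) ζ ε a) (fa : FA (aE P.subtype (nrm P)))
    {l : P →* ℂˣ} (hl : l ≠ 1) (x : P) (hx : x ≠ 1) :
    (ζ l).1 x = (ε * charDegree θ.1 : ℤ) * os (aE P.subtype (nrm P)) l x := by
  classical
  haveI := Fintype.ofFinite (aE P.subtype (nrm P))
  haveI := Fintype.ofFinite (aE P.subtype (nrm P ⊓ stab c.E))
  have := f.w.card_mul_apply' (blockPart_irr_of_mem (f.x.mem l hl))
    fun e => hx (Subtype.ext (eq_one_of_isPElt_of_isPRegular (h.max.isPElt x.2) e))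
  rw [Finset.sum_congr rfl (g := fun u : P => if IsConj (u : G) x then ε * θ.1 1 * os _ l u else 0) fun u hu => by
    have hu := Finset.ne_of_mem_erase hu
    rw [f.exc hl hu, h.Φ_mem hu x.2]; split_ifs <;> ring,
    Finset.sum_erase _ (a := (1 : P)) (by rw [if_neg (by simpa [Subtype.ext_iff] using hx.symm)]),
    ← Finset.sum_filter, ← sum_aE h.card fa hx, ← Finset.mul_sum] at this
  refine mul_left_cancel₀ (Nat.cast_ne_zero.2 Nat.card_pos.ne') (this.trans ?_)
  simp only [os_apply]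
  rw [Finset.sum_comm, Finset.sum_congr rfl (g := fun _ => ∑ σ : aE P.subtype (nrm P), (l (σ.1 x) : ℂ)) fun τ _ =>
    Fintype.sum_equiv (Equiv.mulLeft (⟨τ.1, τ.2.imp fun t ht => ⟨ht.1.1, ht.2⟩⟩ : aE P.subtype (nrm P))) _ _ fun _ => rfl]
  simp [irr_deg]; ring

theorem ker_of_sum (hP : Nat.card P = p) (hψ : IsCharacter G ψ) {c : ℂ} (hc : ∀ g, ¬ IsPRegular p g → ψ g = c)
    (h1 : ψ 1 + (p - 1) * c = 0) {y : G} (hy : y ∈ cen P) (hr : IsPRegular p y) : ψ y = ψ 1 := by
  classical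
  haveI := isCyclic_of_prime_card hP
  have ab : P ≤ cen P := fun a ha b hb => congrArg Subtype.val (IsCyclic.commGroup.mul_comm (⟨b, hb⟩ : P) ⟨a, ha⟩)
  let Q := P.subgroupOf (cen P)
  haveI := Fintype.ofFinite Q
  haveI : Q.Normal := normal_subgroupOf_of_le_normalizer (centralizer_le_normalizer _)
  have k : ∀ y : cen P, IsPRegular p (y : G) → avg Q (fun g : cen P => ψ g) y = (Nat.card Q : ℂ)⁻¹ * (ψ y + (p - 1) * c) := fun y hr => by
    rw [avg, ← Finset.add_sum_erase _ _ (Finset.mem_univ 1), Finset.sum_congr rfl (g := fun _ => c) fun n hn => hc _ fun e => ?_,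
      Finset.sum_const, Finset.card_erase_of_mem (Finset.mem_univ _), Finset.card_univ, ← Nat.card_eq_fintype_card,
      Nat.card_congr (subgroupOfEquivOfLe ab).toEquiv, hP, nsmul_eq_mul, Nat.cast_pred hp.out.pos]
    · simp
    · have := pp_mul (isPElt_of_mem (IsPGroup.of_card (hP.trans (pow_one p).symm)) n.2) hr (y.2 _ n.2)
      exact Finset.ne_of_mem_erase hn (Subtype.ext (Subtype.ext (this.symm.trans (pp_eq_one_iff.2 e))))
  have := k ⟨y, hy⟩ hr
  rw [((hψ.res _).avg (N := Q)).eq_zero_of_deg (by rw [k 1 isPRegular_one, coe_one, h1, mul_zero]), Pi.zero_apply, eq_comm,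
    mul_eq_zero_iff_left (inv_ne_zero (Nat.cast_ne_zero.2 Nat.card_pos.ne'))] at this
  linear_combination this - h1

theorem inner_of_const [Fintype G] {D F : G → ℂ} {c : ℂ} (hD : ∀ g, IsPRegular p g → D g = 0) (hF : ∀ g, ¬ IsPRegular p g → F g = c) :
    classInner D F = conj c * classInner D fun _ => 1 := by
  rw [← H3.inner_smul_right]
  exact inner_congr_support fun g hg => by simpa using hF g fun e => hg (hD g e)

theorem B0_count [Fintype G] [Fintype P] (hP : Nat.card P = p) (hs : H1.IsSylowIn p P ⊤) (hn : ∀ K : Subgroup G, K.Normal → P ≤ K → K = ⊤)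
    {m : ℕ} (hm : Nat.card (aE P.subtype (nrm P)) = m) (hm1 : m + 1 ≠ p) {Γ Γ' : G → ℂ} (h1 : IsCharacter G Γ) (h2 : IsCharacter G Γ')
    (hr : ∀ g, IsPRegular p g → Γ g = Γ' g) (i1 : classInner Γ (fun _ => 1) = 1) (i2 : classInner Γ' (fun _ => 1) = 0)
    (i3 : classInner (fun u : P => Γ' u) (fun _ => 1) = 0) :
    m = 1 ∨ (∀ y ∈ cen P, IsPRegular p y → y ∈ pPrimeCore p G) ∧ (3 * m < p → m ^ 2 < charDegree Γ') := by
  classical
  obtain ⟨M, hM⟩ := exists_pmod hp.out
  haveI : PMod p M := ⟨hM⟩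
  haveI := isCyclic_of_prime_card hP
  have ab : P ≤ cen P := fun a ha b hb => congrArg Subtype.val (IsCyclic.commGroup.mul_comm (⟨b, hb⟩ : P) ⟨a, ha⟩)
  have e0 := ex0_B0 (M := M) hs ab fun y hy h1 => by
    rw [cen1_eq_of_card_p hP hy h1]; exact inf_eq_left.2 (centralizer_le_normalizer _)
  obtain ⟨w, hw⟩ := e0.exc_B0
  obtain ⟨ζ, ε, a, f⟩ := MaxP.full_of_exc (fun e => hp.out.one_lt.ne (by rw [← hP, e, card_bot])) w
  have sP : ∀ u : P, u ≠ 1 → ¬ IsPRegular p (u : G) := fun u hu e =>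
    hu (Subtype.ext (eq_one_of_isPElt_of_isPRegular (e0.fr.max.isPElt u.2) e))
  have sg : ∀ χ ∈ (B0 M G).1 \ YY ζ, ∀ g, ¬ IsPRegular p g → χ.1 g = a χ := fun χ hχ g hg => by
    obtain ⟨k, -, hk⟩ := exists_conj_mem_sylow hs (isPElt_pp g) trivial
    have : k * pp p g * k⁻¹ ≠ 1 := by simpa [pp_eq_one_iff] using hg
    rw [e0.fr.B0_const hk this hχ.1 (isConj_iff.2 ⟨k, rfl⟩).symm, ← f.x.non χ hχ ⟨_, hk⟩ (by simpa [Subtype.ext_iff] using this),
      hw χ hχ.1 _ (by simpa [Subtype.ext_iff] using this)]; rfl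
  have t : trivChar G ∈ (B0 M G).1 \ YY ζ := ⟨trivChar_mem_B0, fun e => by
    have := f.x.card_of_const w e (c := 1) (hw _ trivChar_mem_B0)
    rw [hm, hP] at this; omega⟩
  have hD : ∀ g, IsPRegular p g → (Γ - Γ') g = 0 := fun g hg => sub_eq_zero.2 (hr g hg)
  have iD : classInner (Γ - Γ') (fun _ => 1) = 1 := by rw [H3.inner_sub_left, i1, i2, sub_zero]
  have iX : ∀ χ ∈ (B0 M G).1 \ YY ζ, classInner (Γ - Γ') χ.1 = a χ := fun χ hχ => by
    rw [inner_of_const hD (sg χ hχ), iD, map_intCast, mul_one]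
  have neg : ∀ (χ : IrrCharacter G) (n : ℤ), classInner (Γ - Γ') χ.1 = n → n < 0 → classInner Γ' χ.1 ≠ 0 := fun χ n e hn e' => by
    obtain ⟨k, hk⟩ := h1.inner_nat χ.2.isCharacter
    rw [H3.inner_sub_left, e', hk, sub_zero] at e
    have : (k : ℤ) = n := by exact_mod_cast e
    omega
  have sumP : ∀ (χ : IrrCharacter G) (c : ℂ), (∀ u : P, u ≠ 1 → χ.1 u = c) →
      p * classInner (fun u : P => χ.1 u) (fun _ => 1) = χ.1 1 + (p - 1) * c := fun χ c hc => by
    rw [← hP, card_mul_inner, ← Finset.add_sum_erase _ _ (Finset.mem_univ 1), Finset.sum_congr rfl (g := fun _ => c) fun u hu => by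
      simp [hc u (Finset.ne_of_mem_erase hu)], Finset.sum_const, Finset.card_erase_of_mem (Finset.mem_univ _), Finset.card_univ,
      ← Nat.card_eq_fintype_card, nsmul_eq_mul, Nat.cast_pred Nat.card_pos]
    simp
  have dm : ∀ χ ∈ (B0 M G).1 \ YY ζ, a χ = -1 → χ.1 1 + (p - 1) * (a χ : ℂ) = 0 ∧ classInner Γ' χ.1 ≠ 0 := fun χ hχ e => by
    have := neg χ _ (iX χ hχ) (by omega)
    rw [← sumP χ _ fun u hu => sg χ hχ u (sP u hu), res_inner_zero h2 this i3, mul_zero]
    exact ⟨rfl, this⟩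
  have dm' : ∀ χ ∈ (B0 M G).1 \ YY ζ, a χ = -1 → charDegree χ.1 + 1 = p := fun χ hχ e => by
    have := (dm χ hχ e).1
    rw [e, irr_deg] at this
    exact Nat.cast_injective (R := ℂ) (by push_cast at this ⊢; linear_combination this)
  have dp : ∀ χ ∈ (B0 M G).1 \ YY ζ, a χ = 1 → χ ≠ trivChar G → p + 1 ≤ charDegree χ.1 := fun χ hχ e ne => by
    obtain ⟨k, hk⟩ := (χ.2.isCharacter.res P).inner_nat isCharacter_one
    have := sumP χ _ fun u hu => sg χ hχ u (sP u hu)
    rw [hk, e, irr_deg] at this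
    have : p * k + 1 = charDegree χ.1 + p := Nat.cast_injective (R := ℂ) (by push_cast at this ⊢; linear_combination this)
    have := (charDegree_ne_zero χ.2).pos
    have : charDegree χ.1 ≠ 1 := fun d => ne (Subtype.ext (funext fun g => by
      have := hn _ χ.2.isClassFunction.charKer_normal fun u hu => χ.2.isCharacter.mem_charKer.2 (by
        by_cases u1 : u = 1
        · rw [u1]
        · rw [sg χ hχ u (sP ⟨u, hu⟩ (by simpa using u1)), e, irr_deg, d]; simp)
      rw [χ.2.isCharacter.mem_charKer.1 (this.ge trivial), irr_deg, d]; exact Nat.cast_one))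
    rcases k with _ | _ | k
    · have := hp.out.two_le; omega
    · omega
    · rw [mul_add, mul_add] at *; omega
  haveI := f.nt
  obtain ⟨l, hl⟩ := e0.fa.exists_lin
  set X := Finset.univ.filter (· ∈ (B0 M G).1 \ YY ζ) with hX
  set Xm := X.filter (a · = -1) with hXm
  have cX : X.card = m := by rw [← hm, f.w.card_E, ← f.card_X, Nat.card_eq_fintype_card, Fintype.card_subtype]
  have rel : ε * charDegree (ζ l).1 = ∑ χ ∈ X, a χ * charDegree χ.1 := by
    have := f.rel ⟨l, hl, rfl⟩ isPRegular_one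
    simp only [irr_deg] at this
    exact_mod_cast this
  have low : m * (p + 1) - 2 * p * Xm.card - p ≤ ε * charDegree (ζ l).1 := by
    rw [rel]
    refine le_trans (le_of_eq ?_) (Finset.sum_le_sum (f := fun χ => (p + 1 : ℤ) - (if a χ = -1 then (2 * p : ℤ) else 0) - if χ = trivChar G then (p : ℤ) else 0)
      fun χ hχ => ?_)
    · simp only [Finset.sum_sub_distrib, Finset.sum_const, cX, Finset.sum_ite_eq', ← Finset.sum_filter, ← hXm]
      rw [if_pos (Finset.mem_filter.2 ⟨Finset.mem_univ _, t⟩)]; simp; ring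
    · have hχ := (Finset.mem_filter.1 hχ).2
      obtain e | e := f.sign hχ
      · by_cases r : χ = trivChar G
        · subst r; simp [e, show charDegree (trivChar G).1 = 1 from dg_eq Nat.cast_one.symm]
        · have := dp χ hχ e r
          simp only [e, r]; norm_num; omega
      · have := dm' χ hχ e
        simp only [e, if_true]; split_ifs <;> omega
  have sm : ∑ χ ∈ Xm, charDegree χ.1 = Xm.card * (p - 1) := by
    rw [Finset.sum_congr rfl (g := fun _ => p - 1) fun χ hχ => by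
      have := dm' χ (Finset.mem_filter.1 (Finset.mem_filter.1 hχ).1).2 (Finset.mem_filter.1 hχ).2
      omega, Finset.sum_const, smul_eq_mul]
  have iXm : ∀ χ ∈ Xm, classInner Γ' χ.1 ≠ 0 := fun χ hχ =>
    (dm χ (Finset.mem_filter.1 (Finset.mem_filter.1 hχ).1).2 (Finset.mem_filter.1 hχ).2).2
  have m0 : 0 < m := hm ▸ Nat.card_pos
  have p0 := hp.out.pos
  obtain ⟨e, e1, e2⟩ : ∃ e : ℕ, m ≤ 2 * Xm.card + e ∧ e ≤ 1 ∧ Xm.card * (p - 1) + e * m ≤ charDegree Γ' := by
    obtain rfl | rfl := f.x.sign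
    · obtain ⟨η, ⟨l', hl', rfl⟩, hη⟩ : ∃ η ∈ YY ζ, classInner Γ' η.1 ≠ 0 := by
        by_contra! H
        have z := inner_of_const hD (F := ∑ χ with χ ∈ (B0 M G).1, χ.1 1 • χ.1) (c := 0) fun g hg => by
          simpa [mul_comm] using block_orth (B0 M G) (g := g) (h := 1) (by simpa [pp_eq_one_iff] using hg)
        choose n hn using fun χ : IrrCharacter G => h1.inner_nat χ.2.isCharacter
        rw [map_zero, zero_mul, H3.inner_sum_right, f.x.sum_B,
          Finset.sum_congr rfl (g := fun χ => ((charDegree χ.1 * n χ : ℕ) : ℂ)) fun χ hχ => by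
            rw [H3.inner_smul_right, H3.inner_sub_left, hn, H χ (Finset.mem_filter.1 hχ).2, irr_deg]; simp,
          Finset.sum_congr rfl (s₁ := X) (g := fun χ => ((a χ * charDegree χ.1 : ℤ) : ℂ)) fun χ hχ => by
            rw [H3.inner_smul_right, iX χ (Finset.mem_filter.1 hχ).2, irr_deg]; simp [mul_comm], ← Int.cast_sum, ← rel, ← Nat.cast_sum] at z
        have := (charDegree_ne_zero (ζ l).2).pos
        generalize ∑ χ with χ ∈ YY ζ, charDegree χ.1 * n χ = k at z
        have : (k : ℤ) + 1 * charDegree (ζ l).1 = 0 := by exact_mod_cast z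
        omega
      obtain ⟨s, s1, -, s2⟩ := e0.fa.deg_os hl' ((ζ l').2.isCharacter.res P) (c := 1) fun u hu => by
        rw [← f.exc hl' hu, hw _ (f.x.mem l' hl') u hu]; rfl
      rw [res_inner_zero h2 hη i3, eq_comm, Nat.cast_eq_zero] at s1
      have d : charDegree (ζ l').1 = m := by
        rw [s1, hm] at s2
        exact (dg_congr (by simp)).trans (by omega : charDegree (fun u : P => (ζ l').1 u) = m)
      have := sum_deg_le h2 (insert (ζ l') Xm) (by simpa [hη] using iXm)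
      rw [Finset.sum_insert fun r => (Finset.mem_filter.1 (Finset.mem_filter.1 r).1).2.2 ⟨l', hl', rfl⟩, sm, d] at this
      rw [dg_congr (f.x.reg f.w ⟨l, hl, rfl⟩ ⟨l', hl', rfl⟩ isPRegular_one), d] at low
      exact ⟨1, by zify; exact le_of_mul_le_mul_left (a := (p : ℤ)) (by nlinarith) (by omega), le_rfl, by omega⟩
    · have := (charDegree_ne_zero (ζ l).2).pos
      refine ⟨0, ?_, zero_le_one, by simpa [sm] using sum_deg_le h2 Xm iXm⟩
      zify
      exact Int.lt_add_one_iff.1 (lt_of_mul_lt_mul_left (a := (p : ℤ)) (by nlinarith) (by omega))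
  rcases Xm.eq_empty_or_nonempty with r | ⟨χ, hχ⟩
  · rw [r, Finset.card_empty] at e1; omega
  refine Or.inr ⟨fun y hy hr => ?_, fun h3 => ?_⟩
  · have hχ' := (Finset.mem_filter.1 (Finset.mem_filter.1 hχ).1).2
    have a1 := (Finset.mem_filter.1 hχ).2
    haveI := χ.2.isClassFunction.charKer_normal
    refine H1.le_pPrimeCore (hp.out.coprime_iff_not_dvd.2 fun d => ?_).symm (χ.2.isCharacter.mem_charKer.2
      (ker_of_sum hP χ.2.isCharacter (sg χ hχ') (dm χ hχ' a1).1 hy hr))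
    obtain ⟨g, hg⟩ := exists_prime_orderOf_dvd_card' p d
    have := χ.2.isCharacter.mem_charKer.1 g.2
    rw [sg χ hχ' g fun e => e (by rw [orderOf_coe, hg]), a1, irr_deg] at this
    have : (-1 : ℤ) = charDegree χ.1 := by exact_mod_cast this
    omega
  · have := Finset.card_pos.2 ⟨χ, hχ⟩
    have := Nat.mul_le_mul_left Xm.card (show 3 * m ≤ p - 1 by omega)
    nlinarith [e2.1, e2.2, Nat.mul_le_mul_left m e1]

theorem small_core (hs : ¬ p ^ 2 ∣ Nat.card G) (hd : p ∣ Nat.card G) (hn : ∀ K : Subgroup G, K.Normal → p ∣ Nat.card K → K = ⊤)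
    (hK : pPrimeCore p G ≤ center G ∨ ∀ P : Subgroup G, Nat.card P = p → nrm P ≤ cen P)
    (hf : ∀ g, χ.1 g = χ.1 1 → g = 1) (hl : 2 * charDegree χ.1 + 1 < p) : ∃ H : Subgroup G, H.Normal ∧ Nat.card H = p := by
  classical
  haveI := Fintype.ofFinite G
  obtain ⟨M, hM⟩ := exists_pmod hp.out
  haveI : PMod p M := ⟨hM⟩
  have n0 := (charDegree_ne_zero χ.2).pos
  obtain ⟨P, b, mx⟩ := (blk M χ).exists_maxP
  have cp : ∀ Q : Subgroup G, IsPGroup p Q → p ∣ Nat.card Q → Nat.card Q = p := fun Q hQ d => by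
    obtain ⟨j, hj⟩ := hQ.exists_card_eq
    have : j < 2 := by_contra fun r => hs ((pow_dvd_pow p (by omega)).trans (hj ▸ card_subgroup_dvd_card Q))
    interval_cases j
    · exact absurd (hj ▸ d) (by simpa using hp.out.ne_one)
    · simpa using hj
  have hP : Nat.card P = p := cp P mx.isPGroup (by
    rw [mx.card_eq]
    refine dvd_pow_self p fun e => (Nat.le_of_dvd n0 ?_).not_gt (show charDegree χ.1 < p by omega)
    rwa [hp.out.dvd_iff_one_le_factorization n0.ne', Bl.factorization_eq_of_defect_zero e (mem_blk χ),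
      ← hp.out.dvd_iff_one_le_factorization Nat.card_pos.ne'])
  obtain ⟨S⟩ : Nonempty (Sylow p G) := inferInstance
  have sy : H1.IsSylowIn p P ⊤ := H7.syl_to_H1 (H2.isSylowIn_of_card_le (H1B.syl_top S) mx.isPGroup le_top
    ((cp _ S.isPGroup' (S.dvd_card_of_dvd_card hd)).trans hP.symm).le)
  obtain ⟨c, θ, D⟩ := mx.isDef.exists_d1 hP
  obtain ⟨ζ, ε, a, f⟩ := D.exists_full
  have e0 := ex0_B0 (M := M) sy D.fr.ab fun y hy h1 => by
    rw [cen1_eq_of_card_p hP hy h1]; exact inf_eq_left.2 (centralizer_le_normalizer _)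
  haveI := f.nt
  have nc : ∀ k : ℤ, ¬ ∀ u : P, u ≠ 1 → χ.1 u = k := fun k hk => by
    obtain ⟨u, hu⟩ := exists_ne (1 : P)
    have d := χ.2.isGen.dvd_sub_deg hp.out (k := 1) (x := u) (by rw [pow_one, ← hP, ← coe_pow, pow_card_eq_one', coe_one]) (hk u hu)
      (b := charDegree χ.1) (by simp [irr_deg])
    have := χ.2.isCharacter.norm_le' (irr_deg χ) u
    rw [hk u hu, Complex.norm_intCast] at this
    have : |k| ≤ charDegree χ.1 := by exact_mod_cast this
    have := Int.eq_zero_of_abs_lt_dvd d (by rw [abs_lt]; rw [abs_le] at this; omega)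
    exact hu (Subtype.ext (hf u (by rw [hk u hu, irr_deg, sub_eq_zero.1 this]; simp)))
  obtain ⟨l, hl1, rfl⟩ : χ ∈ YY ζ := by_contra fun e => nc _ fun u hu => by
    rw [D.non_apply f ⟨mem_blk χ, e⟩ u.2 (by simpa using hu), ← Int.cast_natCast, ← Int.cast_mul]
  have ev := fun {l} hl => D.exc_apply f e0.fa (l := l) hl
  obtain ⟨l', hl', nl⟩ : ∃ l', l' ≠ 1 ∧ ¬ LC (aE P.subtype (nrm P)) l l' := by
    by_contra! H
    exact nc (-(ε * charDegree θ.1)) fun u hu => by rw [ev hl1 u hu, e0.fa.os_of_one hl1 H hu]; simp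
  obtain ⟨m, hm⟩ : ∃ m, Nat.card (aE P.subtype (nrm P)) = m := ⟨_, rfl⟩
  have m0 : 0 < m := hm ▸ Nat.card_pos
  obtain ⟨t, t2, ht⟩ : ∃ t, 2 ≤ t ∧ t * m + 1 = p := by
    obtain ⟨ζ0, ε0, d0, a0, x⟩ := e0.exc_B0.1.exists_exD
    refine ⟨_, ?_, (hm ▸ x.card_YY e0.fa).trans hP⟩
    rw [Nat.card_coe_set_eq]
    exact (Set.one_lt_ncard_iff (Set.toFinite _)).2 ⟨_, _, ⟨l, hl1, rfl⟩, ⟨l', hl', rfl⟩, fun e => nl ((x.inj _ _ hl1 hl').1 e)⟩
  have f0 := (charDegree_ne_zero θ.2).pos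
  obtain ⟨s, -, s1, s2⟩ := e0.fa.deg_os hl1 ((ζ l).2.isCharacter.res P) (ev hl1)
  rw [hm, hP, show charDegree (fun u : P => (ζ l).1 u) = charDegree (ζ l).1 from dg_congr (by simp)] at s2
  obtain rfl : ε = 1 := f.x.sign.resolve_right fun r => by
    subst r
    have : 2 * m + 1 ≤ p := by nlinarith
    nlinarith
  obtain rfl : s = 0 := by_contra fun r => by
    have : 1 ≤ s := by omega
    nlinarith
  have dg1 : charDegree (ζ l).1 = charDegree θ.1 * m := by zify; linear_combination s2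
  have rg := fun g => f.x.reg f.w ⟨l, hl1, rfl⟩ ⟨l', hl', rfl⟩ (g := g)
  have ev' : ∀ k, k ≠ 1 → (ζ k).1 1 = (ζ l).1 1 → (fun u : P => (ζ k).1 u) = (charDegree θ.1 : ℂ) • os (aE P.subtype (nrm P)) k :=
    fun k hk e => funext fun u => by
      by_cases u1 : u = 1
      · rw [u1, Pi.smul_apply, os_one, hm, coe_one, e, irr_deg, dg1, Nat.cast_mul, smul_eq_mul]
      · simp [ev hk u u1]
  have m1 : m = 1 := by
    refine (B0_count hP sy (fun K k l => hn K k (hP ▸ card_dvd_of_le l)) hm (by nlinarith)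
      ((ζ l).2.isCharacter.mul (ζ l).2.conj.isCharacter) ((ζ l).2.isCharacter.mul (ζ l').2.conj.isCharacter)
      (fun g hg => by simp [rg g hg]) ?_ ?_ ?_).elim id fun ⟨h1, h2⟩ => ?_
    · simpa [classInner] using (ζ l).2.inner_self
    · have := inner_irr (ζ l) (ζ l')
      rw [if_neg fun e => nl (((f.x.inj _ _ hl1 hl').1 e).imp fun σ h => ⟨h.1.imp fun t ht => ⟨ht.1.1, ht.2⟩, h.2⟩)] at this
      simpa [classInner] using this
    · have : classInner (fun u : P => (ζ l).1 u) (fun u : P => (ζ l').1 u) = 0 := by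
        haveI := Fintype.ofFinite (aE P.subtype (nrm P))
        rw [ev' l hl1 rfl, ev' l' hl' (rg 1 isPRegular_one).symm, H3.inner_smul_left, H3.inner_smul_right, os_eq l', H3.inner_sum_right,
          Finset.sum_eq_zero fun σ _ => by rw [e0.fa.inner_os hl1, if_neg fun e => nl (e.trans (LC.symm ⟨σ, σ.2, rfl⟩))]]
        simp
      simpa [classInner] using this
    obtain hK | hK := hK
    swap
    · rw [← hm, card_aE P.subtype_injective (range_subtype _) le_rfl, relIndex_eq_one.2 (hK P hP)]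
    have z : ∀ g ∈ cen P, ∃ u ∈ P, u⁻¹ * g ∈ center G := fun g hg => by
      obtain ⟨k, hk, e⟩ := exists_conj_mem_sylow (sy.of_le D.fr.ab le_top) (isPElt_pp g) (pp_mem hg)
      refine ⟨pp p g, by simpa [mul_assoc] using conj_mem_of_nrm (inv_mem (centralizer_le_normalizer _ hk)) e, hK (h1 _ ?_ ?_)⟩
      · exact mul_mem (inv_mem (pp_mem hg)) hg
      · rw [show (pp p g)⁻¹ * g = pq p g by rw [inv_mul_eq_iff_eq_mul, pp_mul_pq]]; exact isPRegular_pq g
    have := θ.2.deg_eq_one_of_comm fun a b => Subtype.ext (by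
      obtain ⟨u, hu, e⟩ := z a a.2
      rw [coe_mul, coe_mul, ← mul_inv_cancel_left u (a : G), mul_assoc u, ← mem_center_iff.1 e b, ← mul_assoc, b.2 u hu, mul_assoc])
    rw [(dg_eq (this.trans Nat.cast_one.symm) : charDegree θ.1 = 1), one_mul] at dg1
    have := h2 (by nlinarith [show 3 ≤ t by nlinarith])
    rw [dg_eq (n := m * m) (by simp [← rg 1 isPRegular_one, irr_deg, dg1])] at this
    nlinarith
  refine ⟨P, normal_of_le_center fun u hu => ?_, hP⟩
  rw [← (ζ l).2.charCenter_eq_center (eq_bot_iff.2 fun g hg => hf g ((ζ l).2.isCharacter.mem_charKer.1 hg)),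
    (ζ l).2.isCharacter.mem_charCenter, congrFun (ev' l hl1 rfl) ⟨u, hu⟩, irr_deg, dg1, m1]
  haveI := Fintype.ofFinite (aE P.subtype (nrm P))
  obtain ⟨σ, hσ⟩ := Fintype.card_eq_one_iff.1 (Nat.card_eq_fintype_card.symm.trans (hm.trans m1))
  simp [os_apply, Fintype.sum_eq_single σ fun τ h => absurd (hσ τ) h, norm_lin]

universe u in
theorem small_main (n : ℕ) : ∀ (G : Type u) [Group G] [Finite G], Nat.card G = n → ¬ p ^ 2 ∣ Nat.card G → p ∣ Nat.card G →
    ∀ ψ : G → ℂ, IsCharacter G ψ → (∀ g, ψ g = ψ 1 → g = 1) → 2 * charDegree ψ + 1 < p → ∃ H : Subgroup G, H.Normal ∧ Nat.card H = p := by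
  induction n using Nat.strong_induction_on with | _ n ih => ?_
  rintro G _ _ rfl hs hd ψ hψ hf hl
  haveI := Fintype.ofFinite G
  have pg : ∀ {H : Subgroup G}, Nat.card H = p → IsPGroup p H := fun h => IsPGroup.of_card (h.trans (pow_one p).symm)
  have sub : ∀ L : Subgroup G, L ≠ ⊤ → p ∣ Nat.card L → ∃ H : Subgroup G, Nat.card H = p ∧ H ≤ L ∧ L ≤ nrm H ∧
      ∀ Q ≤ L, Nat.card Q = p → Q = H := fun L h1 h2 => by
    obtain ⟨H, hH, c⟩ := ih _ ((card_le_card_group L).lt_of_ne fun e => h1 (eq_top_of_card_eq L e)) L rfl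
      (fun d => hs (d.trans (card_subgroup_dvd_card L))) h2 _ (hψ.res L) (fun g e => Subtype.ext (hf g e))
      ((dg_congr (by simp) : charDegree (fun g : L => ψ g) = charDegree ψ) ▸ hl)
    have c' : Nat.card (H.map L.subtype) = p := (card_map_of_injective L.subtype_injective).trans c
    have n' : L ≤ nrm (H.map L.subtype) := fun g hg => mem_nrm_of_conj (by
      rintro _ ⟨x, hx, rfl⟩; exact ⟨_, hH.conj_mem x hx ⟨g, hg⟩, rfl⟩)
    refine ⟨_, c', map_subtype_le H, n', fun Q hQ cQ => eq_of_le_of_card_ge ?_ (c'.trans cQ.symm).le⟩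
    refine H1.IsSylowIn.le_of_le_normalizer (K := ⊤) ⟨le_top, pg c', fun d => hs ?_⟩ (pg cQ) le_top (hQ.trans n')
    rw [← (H.map L.subtype).card_mul_index, c', sq]
    exact mul_dvd_mul_left p (by rwa [relIndex_top_right] at d)
  by_cases hn : ∀ K : Subgroup G, K.Normal → p ∣ Nat.card K → K = ⊤
  swap
  · push Not at hn
    obtain ⟨K, k1, k2, k3⟩ := hn
    obtain ⟨H, c, l, -, u⟩ := sub K k3 k2
    exact ⟨H, normalizer_eq_top_iff.1 (eq_top_iff.2 fun g _ => H1.conj_smul_eq_self_iff.1 (u _ (by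
      rintro _ ⟨x, hx, rfl⟩; exact k1.conj_mem x (l hx) g) ((H1.card_conj_smul _ _).trans c))), c⟩
  have ck : ∀ P : Subgroup G, Nat.card P = p → ∀ a ∈ pPrimeCore p G, a ∈ nrm P → a ∈ cen P := fun P c a h1 h2 u hu => by
    rw [eq_comm, ← mul_inv_eq_iff_eq_mul, ← mul_inv_eq_one]
    refine (H7.inf_eq_bot_of_isPGroup (pg c) H1.coprime_pPrimeCore).le ⟨P.mul_mem (conj_mem_of_nrm h2 hu) (P.inv_mem hu), ?_⟩
    simpa [mul_assoc] using mul_mem h1 ((inferInstance : (pPrimeCore p G).Normal).conj_mem _ (inv_mem h1) u)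
  have hK : pPrimeCore p G ≤ center G ∨ ∀ P : Subgroup G, Nat.card P = p → nrm P ≤ cen P := by
    refine or_iff_not_imp_left.2 fun h P c g hg => ?_
    have e : P ⊔ pPrimeCore p G = ⊤ := by_contra fun e => h fun a ha => by
      obtain ⟨H, -, -, l, u⟩ := sub _ e (c ▸ card_dvd_of_le le_sup_left)
      obtain rfl := u P le_sup_left c
      have := hn (cen (pPrimeCore p G)) inferInstance (c.symm.dvd.trans (card_dvd_of_le fun u hu a ha => (ck P c a ha (l (mem_sup_right ha)) u hu).symm))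
      exact mem_center_iff.2 fun g => (this.ge trivial a ha).symm
    obtain ⟨u, hu, a, ha, rfl⟩ := mem_sup_of_normal_right.1 (e.ge (mem_top g))
    haveI := isCyclic_of_prime_card c
    exact mul_mem (fun b hb => congrArg Subtype.val (IsCyclic.commGroup.mul_comm (⟨b, hb⟩ : P) ⟨u, hu⟩))
      (ck P c a ha ((mul_mem_cancel_left (le_normalizer hu)).1 hg))
  by_cases ab : ∀ a b : G, a * b = b * a
  · obtain ⟨x, hx⟩ := exists_prime_orderOf_dvd_card' p hd
    exact ⟨zpowers x, normal_of_le_center fun u _ => mem_center_iff.2 fun g => ab g u, (Nat.card_zpowers x).trans hx⟩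
  push Not at ab
  obtain ⟨a, b, ab⟩ := ab
  obtain ⟨χ, h1, h2⟩ : ∃ χ : IrrCharacter G, classInner ψ χ.1 ≠ 0 ∧ χ.1 (a * b * a⁻¹ * b⁻¹) ≠ χ.1 1 := by
    by_contra! H
    obtain ⟨n, e1, e2⟩ := hψ.exists_coeff
    refine ab (mul_inv_eq_iff_eq_mul.1 (mul_inv_eq_one.1 (hf _ ?_)))
    rw [e2, Finset.sum_apply, Finset.sum_apply]
    exact Finset.sum_congr rfl fun χ _ => by
      by_cases e : n χ = 0
      · simp [e]
      · simp [H χ (by simpa [e1] using e)]
  have dl := hψ.deg_le_of_inner_ne_zero χ.2 h1 (irr_deg χ) hψ.deg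
  haveI := χ.2.isClassFunction.charKer_normal
  by_cases L : charKer χ.1 = ⊥
  · exact small_core hs hd hn hK (χ := χ) (fun g e => mem_bot.1 (L ▸ χ.2.isCharacter.mem_charKer.2 e)) (by omega)
  obtain ⟨φ, f1, f2, f3, f4⟩ := χ.2.exists_faithful
  have c := card_eq_card_quotient_mul_card_subgroup (charKer χ.1)
  obtain ⟨H, hH, cH⟩ := ih _ (c ▸ lt_mul_of_one_lt_right Nat.card_pos ((one_lt_card_iff_ne_bot _).2 L)) _ rfl
    (fun d => hs (c ▸ d.mul_right _)) (((hp.out.dvd_mul).1 (c ▸ hd)).resolve_right fun d =>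
      h2 (χ.2.isCharacter.mem_charKer.1 ((hn _ this d).ge trivial))) φ f1.isCharacter f3 (by omega)
  have t := hn (H.comap (QuotientGroup.mk' _)) inferInstance (by rw [H1.card_comap_mk', cH]; exact dvd_mul_right _ _)
  haveI := isCyclic_of_prime_card cH
  have := congrArg Subtype.val (IsCyclic.commGroup.mul_comm (⟨a, t.ge (mem_top a)⟩ : H) ⟨b, t.ge (mem_top b)⟩)
  exact absurd (by rw [f2, f2]; simp [show (a : G ⧸ charKer χ.1) * b = b * a from this]) h2

end H9
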