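import Cfsg.Agent.H9.Pr4

/-! Irreducible characters of degree `p - 2`. -/

set_option autoImplicit false
set_option linter.style.haveILetI false
set_option linter.unusedSectionVars false

namespace H9
open Cfsg H3 MonoidAlgebra Subgroup Module
open scoped ComplexConjugate Pointwise

variable {p : ℕ} {M : Ideal AlgInt} {G : Type*} [Group G] [Finite G] [hp : Fact p.Prime] {x g : G} {P : Subgroup G}
  {χ η : IrrCharacter G} {ψ : G → ℂ}

theorem eq_deg_of_inner_one [Fintype G] (hψ : IsCharacter G ψ) (h : classInner ψ (fun _ => 1) = ψ 1) (g : G) : ψ g = ψ 1 := by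
  have := congrArg Complex.re (card_mul_inner ψ fun _ => 1)
  have k := fun g => hψ.norm_le' hψ.deg g
  simp only [h, hψ.deg, map_one, mul_one, Complex.re_sum, ← Nat.cast_mul, Complex.natCast_re] at this
  have e := (Finset.sum_eq_zero_iff_of_nonneg (f := fun g => (charDegree ψ : ℝ) - (ψ g).re) fun g _ =>
    sub_nonneg.2 ((Complex.re_le_norm _).trans (k g))).1 (by simp [← this]) g (Finset.mem_univ _)
  have := Complex.abs_re_eq_norm.1 (le_antisymm (Complex.abs_re_le_norm _) ((k g).trans ((sub_eq_zero.1 e).le.trans (le_abs_self _))))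
  exact Complex.ext (by simp [hψ.deg, sub_eq_zero.1 e]) (by simp [hψ.deg, this])

theorem exc_data [PMod p M] [Fintype G] (hs : ¬ p ^ 2 ∣ Nat.card G) (hd : p ∣ Nat.card G) (hl : charDegree χ.1 + 1 < p)
    (hn : ¬ p ∣ Nat.card (charCenter χ.1)) :
    ∃ (P : Subgroup G) (_ : Fintype P) (c : Bl M (cen P)) (θ : IrrCharacter (cen P)) (ζ : (P →* ℂˣ) → IrrCharacter G) (ε : ℤ)
      (a : IrrCharacter G → ℤ) (l : P →* ℂˣ) (s : ℕ), H1.IsSylowIn p P ⊤ ∧ D1 (blk M χ) P c θ ∧
      Full (blk M χ) P c.E P.subtype (aE P.subtype (nrm P ⊓ stab c.E)) (dΦ c θ) ζ ε a ∧ l ≠ 1 ∧ ζ l = χ ∧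
      FA (aE P.subtype (nrm P)) ∧ Nat.card (aE P.subtype (nrm P)) ≠ 1 ∧ classInner (fun u : P => χ.1 u) (fun _ => 1) = s ∧
      0 ≤ ε * charDegree θ.1 + s ∧ (charDegree χ.1 : ℤ) = ε * charDegree θ.1 * Nat.card (aE P.subtype (nrm P)) + p * s := by
  classical
  have n0 := (charDegree_ne_zero χ.2).pos
  obtain ⟨P, b, mx⟩ := (blk M χ).exists_maxP
  have cp : ∀ Q : Subgroup G, IsPGroup p Q → p ∣ Nat.card Q → Nat.card Q = p := fun Q hQ d => by
    obtain ⟨j, hj⟩ := hQ.exists_card_eq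
    have : j < 2 := by_contra fun r => hs ((pow_dvd_pow p (by omega)).trans (hj ▸ card_subgroup_dvd_card Q))
    interval_cases j
    · exact absurd (hj ▸ d) (by simpa using hp.out.ne_one)
    · simpa using hj
  have hP : Nat.card P = p := cp P mx.isPGroup (by
    rw [mx.card_eq]
    refine dvd_pow_self p fun e => (Nat.le_of_dvd n0 ?_).not_gt (show charDegree χ.1 < p by omega)
    rwa [hp.out.dvd_iff_one_le_factorization n0.ne', Bl.factorization_eq_of_defect_zero e (mem_blk χ),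
      ← hp.out.dvd_iff_one_le_factorization Nat.card_pos.ne'])
  obtain ⟨S⟩ : Nonempty (Sylow p G) := inferInstance
  have sy : H1.IsSylowIn p P ⊤ := H7.syl_to_H1 (H2.isSylowIn_of_card_le (H1B.syl_top S) mx.isPGroup le_top
    ((cp _ S.isPGroup' (S.dvd_card_of_dvd_card hd)).trans hP.symm).le)
  obtain ⟨c, θ, D⟩ := mx.isDef.exists_d1 hP
  obtain ⟨ζ, ε, a, f⟩ := D.exists_full
  have e0 := ex0_B0 (M := M) sy D.fr.ab fun y hy h1 => by
    rw [cen1_eq_of_card_p hP hy h1]; exact inf_eq_left.2 (centralizer_le_normalizer _)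
  haveI := f.nt
  haveI := Fintype.ofFinite P
  have nP : ¬ ∀ u : P, u ≠ 1 → ‖χ.1 u‖ = charDegree χ.1 := fun h => hn (hP ▸ card_dvd_of_le fun u hu => by
    rw [χ.2.isCharacter.mem_charCenter]
    by_cases u1 : u = 1
    · rw [u1]
    · rw [h ⟨u, hu⟩ (by simpa using u1), irr_deg, Complex.norm_natCast])
  have nc : ∀ k : ℤ, ¬ ∀ u : P, u ≠ 1 → χ.1 u = k := fun k hk => by
    obtain ⟨s, hs⟩ := (χ.2.isCharacter.res P).inner_nat isCharacter_one
    have := card_mul_inner (fun u : P => χ.1 u) fun _ => 1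
    rw [hs, hP, ← Finset.add_sum_erase _ _ (Finset.mem_univ 1), Finset.sum_congr rfl (g := fun _ => (k : ℂ)) fun u hu => by
      simp [hk u (Finset.ne_of_mem_erase hu)], Finset.sum_const, Finset.card_erase_of_mem (Finset.mem_univ _), Finset.card_univ,
      ← Nat.card_eq_fintype_card, hP, nsmul_eq_mul, Nat.cast_pred hp.out.pos, coe_one, irr_deg, map_one, mul_one] at this
    have e : (p : ℤ) * s = charDegree χ.1 + (p - 1) * k := by exact_mod_cast this
    obtain rfl : k = charDegree χ.1 := by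
      rcases lt_trichotomy k s with r | r | r
      · rcases lt_or_ge k 0 with r' | r' <;> nlinarith
      · subst r; linarith
      · obtain ⟨u, hu⟩ := exists_ne (1 : P)
        have := χ.2.isCharacter.norm_le' (irr_deg χ) u
        rw [hk u hu, Complex.norm_intCast] at this
        have : |k| ≤ charDegree χ.1 := by exact_mod_cast this
        rw [abs_le] at this
        nlinarith
    exact nP fun u hu => by simp [hk u hu]
  obtain ⟨l, hl1, rfl⟩ : χ ∈ YY ζ := by_contra fun e => nc _ fun u hu => by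
    rw [D.non_apply f ⟨mem_blk χ, e⟩ u.2 (by simpa using hu), ← Int.cast_natCast, ← Int.cast_mul]
  have ev := D.exc_apply f e0.fa hl1
  obtain ⟨s, s0, s1, s2⟩ := e0.fa.deg_os hl1 ((ζ l).2.isCharacter.res P) ev
  rw [hP, show charDegree (fun u : P => (ζ l).1 u) = charDegree (ζ l).1 from dg_congr (by simp)] at s2
  refine ⟨P, this, c, θ, ζ, ε, a, l, s, sy, D, f, hl1, rfl, e0.fa, fun m1 => nP fun u hu => ?_, s0, s1, s2⟩
  have f0 := (charDegree_ne_zero θ.2).pos
  rw [m1] at s2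
  obtain rfl : ε = 1 := f.x.sign.resolve_right fun r => by
    subst r
    have := mul_le_mul_of_nonneg_left (show (1 : ℤ) ≤ s by omega) (show (0 : ℤ) ≤ p - 1 by omega)
    zify at hl
    push_cast at s2
    linarith
  obtain rfl : s = 0 := by_contra fun r => by
    have : 1 ≤ s := by omega
    nlinarith
  haveI := Fintype.ofFinite (aE P.subtype (nrm P))
  obtain ⟨σ, hσ⟩ := Fintype.card_eq_one_iff.1 (Nat.card_eq_fintype_card.symm.trans m1)
  rw [ev u hu, show charDegree (ζ l).1 = charDegree θ.1 by omega]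
  simp [os_apply, Fintype.sum_eq_single σ fun τ h => absurd (hσ τ) h, norm_lin]

theorem dvd_center_of_nrm (hs : ¬ p ^ 2 ∣ Nat.card G) (hd : p ∣ Nat.card G) (hl : charDegree χ.1 + 1 < p)
    (h : ∀ P : Subgroup G, Nat.card P = p → nrm P ≤ cen P) : p ∣ Nat.card (charCenter χ.1) := by
  haveI := Fintype.ofFinite G
  obtain ⟨M, hM⟩ := exists_pmod hp.out
  haveI : PMod p M := ⟨hM⟩
  by_contra hn
  obtain ⟨P, _, c, θ, ζ, ε, a, l, s, -, D, -, -, -, -, e, -⟩ := exc_data (M := M) hs hd hl hn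
  exact e (by rw [card_aE P.subtype_injective (range_subtype _) le_rfl, relIndex_eq_one.2 (h P D.card)])

theorem D1.sum_Φ [PMod p M] [Fintype P] [DecidableEq P] {B : Bl M G} {c : Bl M (cen P)} {θ : IrrCharacter (cen P)} (D : D1 B P c θ)
    (fa : FA (aE P.subtype (nrm P))) {y : G} (hy : y ∈ cen P) (hr : IsPRegular p y) :
    ∃ S : ℂ, ‖S‖ ≤ Nat.card (aE P.subtype (nrm P)) * charDegree θ.1 ∧
      ∀ u : P, u ≠ 1 → ∑ x ∈ Finset.univ.erase (1 : P), dΦ c θ u (x * y) = S := by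
  classical
  haveI := Fintype.ofFinite (aE P.subtype (nrm P))
  choose t ht e using fun σ : aE P.subtype (nrm P) => σ.2
  have k : ∀ σ, (t σ)⁻¹ * y * (t σ)⁻¹⁻¹ ∈ cen P := fun σ => conj_mem_of_nrm (nrm_le_nrm_cen P (inv_mem (ht σ))) hy
  refine ⟨∑ σ, θ.1 ⟨_, k σ⟩, (norm_sum_le_of_le _ fun σ _ => θ.2.isCharacter.norm_le' (irr_deg θ) _).trans (by simp), fun u hu => ?_⟩
  have z : ∀ x : P, ¬ IsConj (x : G) u → dΦ c θ u (x * y) = 0 := fun x h => TT_eq_zero (D.max.isPElt u.2) _ _ (by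
    rw [pp_mul (D.max.isPElt x.2) hr (hy x x.2)]; exact fun e => h e.symm)
  rw [Finset.sum_erase (f := fun x : P => dΦ c θ u (x * y)) _ (z 1 fun e => hu (Subtype.ext (isConj_one_right.1 e))),
    ← Finset.sum_filter_of_ne (p := fun x : P => IsConj (x : G) u) fun x _ h => by_contra fun r => h (z x r),
    ← sum_aE D.card fa hu]
  refine Finset.sum_congr rfl fun σ _ => ?_
  rw [← D.Φ_apply hu (y := ⟨_, k σ⟩) (isPRegular_coe.1 ((isPRegular_conj _ _).2 hr))]
  exact (dΦ_cf c θ u).of_isConj (isConj_iff.2 ⟨(t σ)⁻¹, by rw [show (σ.1 u : G) = t σ * u * (t σ)⁻¹ from e σ u]; group⟩)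

theorem deg_sub_two (hs : ¬ p ^ 2 ∣ Nat.card G) (hd : p ∣ Nat.card G) (hl : charDegree χ.1 + 2 = p) (h3 : 3 < p)
    (hn : ¬ p ∣ Nat.card (charCenter χ.1)) :
    (∀ g, ¬ IsPRegular p g → pq p g ∈ charCenter χ.1 ∧ χ.1 (pp p g) * χ.1 (pp p g) + χ.1 (pp p g * pp p g) = 2) ∧
    (∃ Y : Finset (IrrCharacter G), p ≤ 2 * Y.card + 1 ∧ ∀ ψ ∈ Y, ∃ σ, PFix p G σ ∧ ψ.1 = fun g => σ (χ.1 g)) ∧
    ∃ P : Subgroup G, Nat.card P = p ∧ (cen P).relIndex (nrm P) = 2 := by
  classical
  haveI := Fintype.ofFinite G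
  obtain ⟨M, hM⟩ := exists_pmod hp.out
  haveI : PMod p M := ⟨hM⟩
  obtain ⟨P, _, c, θ, ζ, ε, a, l, s, sy, D, f, hl1, rfl, fa, m1, s0, s1, s2⟩ := exc_data (M := M) hs hd (by omega) hn
  haveI := f.nt
  have hP := D.card
  have e0 := ex0_B0 (M := M) sy D.fr.ab fun y hy h1 => by
    rw [cen1_eq_of_card_p hP hy h1]; exact inf_eq_left.2 (centralizer_le_normalizer _)
  obtain ⟨m, hm⟩ : ∃ m, Nat.card (aE P.subtype (nrm P)) = m := ⟨_, rfl⟩
  have m0 : 0 < m := hm ▸ Nat.card_pos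
  obtain ⟨t, ht, -⟩ := e0.exists_card
  rw [hm, hP] at ht
  rw [hm] at s2 m1
  have f0 := (charDegree_ne_zero θ.2).pos
  generalize hf : charDegree θ.1 = F at s1 s2 f0
  obtain rfl : ε = -1 := f.x.sign.resolve_left fun r => by
    subst r
    obtain rfl : s = 0 := by_contra fun r => by
      have : 1 ≤ s := by omega
      nlinarith
    exact m1 (Nat.dvd_one.1 ((Nat.dvd_add_right (dvd_mul_left m F)).1 (by
      rw [show F * m + 1 = m * t by zify at *; linarith]; exact dvd_mul_right _ _)))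
  have t0 : 0 < t := Nat.pos_of_ne_zero (by rintro rfl; omega)
  have mt := Nat.le_mul_of_pos_right m t0
  obtain rfl : s = F := by_contra fun r => by
    have : F + 1 ≤ s := by omega
    nlinarith
  have ev := D.exc_apply f fa hl1
  have t1 : t ≠ 1 := by
    rintro rfl
    refine hn (hP.symm.dvd.trans <| card_dvd_of_le fun u hu => charKer_le_charCenter _ ((ζ l).2.isCharacter.mem_charKer.2 ?_))
    have := eq_deg_of_inner_one ((ζ l).2.isCharacter.res P) (s0.trans (by
      rw [coe_one, irr_deg]; congr 1; zify at ht ⊢; rw [s2, ht]; ring))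
    exact this ⟨u, hu⟩
  have : 2 * m ≤ m * t := by nlinarith [show 2 ≤ t by omega]
  obtain rfl : s = 1 := by_contra fun r => by
    have : 2 ≤ s := by omega
    nlinarith
  obtain rfl : m = 2 := by omega
  haveI := Fintype.ofFinite (aE P.subtype (nrm P))
  obtain ⟨σ, σ1, hσ⟩ := (Nat.card_eq_two_iff' (1 : aE P.subtype (nrm P))).1 hm
  have σu : ∀ u, σ.1 u = u⁻¹ := fun u => eq_inv_of_mul_eq_one_right (by_contra fun r => σ1 (Subtype.ext (fa.free _ σ.2 _ r (by
    have : σ * σ = 1 := by_contra fun e => σ1 (mul_eq_left.1 (hσ _ e))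
    rw [map_mul, ← MulAut.mul_apply, ← coe_mul, this, fa.comm]; rfl))))
  have ev' : ∀ u : P, u ≠ 1 → (ζ l).1 u = -(l u + (l u : ℂ)⁻¹) := fun u hu => by
    rw [ev u hu, os_apply, hf, show Finset.univ = {1, σ} from Finset.ext fun τ => by
      simpa using or_iff_not_imp_left.2 (hσ τ), Finset.sum_pair σ1.symm, σu]
    simp
  refine ⟨fun g hg => ?_, ⟨(Set.toFinite (YY ζ)).toFinset, ?_, fun ψ hψ => (D.gal_iff f ⟨l, hl1, rfl⟩ ψ).2 (by simpa using hψ)⟩,
    P, hP, by rw [← card_aE P.subtype_injective (range_subtype _) le_rfl, hm]⟩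
  swap
  · have := f.x.card_YY f.w.fa
    have l : Nat.card (aE P.subtype (nrm P ⊓ stab c.E)) ≤ 2 := hm ▸ card_le_of_le fun σ h => h.imp fun t ht => ⟨ht.1.1, ht.2⟩
    rw [hP, Nat.card_coe_set_eq, Set.ncard_eq_toFinset_card _ (Set.toFinite _)] at this
    nlinarith
  obtain ⟨k, -, hk⟩ := exists_conj_mem_sylow sy (isPElt_pp g) trivial
  have u1 : (⟨_, hk⟩ : P) ≠ 1 := by simpa [Subtype.ext_iff, pp_eq_one_iff] using hg
  have cf := (ζ l).2.isClassFunction
  refine ⟨?_, ?_⟩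
  swap
  · have u2 : (⟨_, hk⟩ : P) * ⟨_, hk⟩ ≠ 1 := fun e => by
      have := orderOf_dvd_of_pow_eq_one ((_root_.sq _).trans e)
      rw [orderOf_eq_prime (p := p) (by simpa only [hP] using pow_card_eq_one' (x := (⟨_, hk⟩ : P))) u1] at this
      have := Nat.le_of_dvd two_pos this
      omega
    rw [← cf (pp p g) k, ← cf (pp p g * pp p g) k, ev' _ u1, ← conj_mul, ← show _ = k * pp p g * k⁻¹ * _ from coe_mul _ ⟨_, hk⟩ ⟨_, hk⟩,
      ev' _ u2, map_mul, Units.val_mul]
    field_simp; ring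
  have hy : k * pq p g * k⁻¹ ∈ cen P := by
    rw [← cen1_eq_of_card_p hP hk (by simpa [Subtype.ext_iff] using u1), mem_centralizer_singleton_iff, conj_mul, conj_mul,
      pp_mul_pq, pq_mul_pp]
  have hr := (isPRegular_conj k _).2 (isPRegular_pq (p := p) g)
  refine (cf.charCenter_normal.mem_comm_iff.1 (?_ : k * (pq p g * k⁻¹) ∈ _) |> fun h => by simpa using h)
  rw [← mul_assoc]
  generalize k * pq p g * k⁻¹ = y at hy hr
  obtain ⟨S, hS, eS⟩ := D.sum_Φ fa hy hr
  have e1 : ∑ x ∈ Finset.univ.erase (1 : P), (ζ l).1 (x * y) = S := by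
    haveI := Fintype.ofFinite (aE P.subtype (nrm P ⊓ stab c.E))
    refine mul_left_cancel₀ (Nat.cast_ne_zero.2 (Nat.card_pos (α := aE P.subtype (nrm P ⊓ stab c.E))).ne') ?_
    rw [Finset.mul_sum, Finset.sum_congr rfl fun x hx => f.w.card_mul_apply' (blockPart_irr_of_mem (f.x.mem l hl1)) fun e =>
      Finset.ne_of_mem_erase hx (Subtype.ext ((pp_mul (D.max.isPElt x.2) hr (hy x x.2)).symm.trans (pp_eq_one_iff.2 e))),
      Finset.sum_comm, Finset.sum_congr rfl fun u hu => by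
        rw [← Finset.mul_sum, eS u (Finset.ne_of_mem_erase hu), f.exc hl1 (Finset.ne_of_mem_erase hu)], ← Finset.sum_mul, ← Finset.mul_sum]
    have := card_mul_inner (os (aE P.subtype (nrm P ⊓ stab c.E)) l) (lf 1)
    rw [f.w.fa.inner_os hl1, if_neg fun e => hl1 (lc_one.1 e.symm), ← Finset.add_sum_erase _ _ (Finset.mem_univ 1), os_one] at this
    simp only [lf, MonoidHom.one_apply, Units.val_one, map_one, mul_one, mul_zero] at this
    congr 1
    push_cast
    linear_combination this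
  let Q := P.subgroupOf (cen P)
  haveI := Fintype.ofFinite Q
  haveI : Q.Normal := normal_subgroupOf_of_le_normalizer (centralizer_le_normalizer _)
  have k : ∀ y : cen P, p * avg Q (fun g : cen P => (ζ l).1 g) y = ∑ x : P, (ζ l).1 (x * y) := fun y => by
    rw [avg, Nat.card_congr (subgroupOfEquivOfLe D.fr.ab).toEquiv, hP, mul_inv_cancel_left₀ (Nat.cast_ne_zero.2 hp.out.ne_zero)]
    exact Fintype.sum_equiv (subgroupOfEquivOfLe D.fr.ab).toEquiv _ _ fun _ => rfl
  have ac := ((ζ l).2.isCharacter.res (cen P)).avg (N := Q)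
  have a1 : avg Q (fun g : cen P => (ζ l).1 g) 1 = 1 := mul_left_cancel₀ (Nat.cast_ne_zero.2 hp.out.ne_zero) (by
    have := card_mul_inner (fun u : P => (ζ l).1 u) fun _ => 1
    rw [s0, hP] at this
    simpa [k] using this.symm)
  have a2 := k ⟨y, hy⟩
  rw [← Finset.add_sum_erase _ _ (Finset.mem_univ 1), e1, coe_one, one_mul] at a2
  have a3 : ‖avg Q (fun g : cen P => (ζ l).1 g) ⟨y, hy⟩‖ = 1 := by
    obtain ⟨μ, e⟩ := ac.exists_lin a1
    rw [e, norm_lin]
  have a4 := norm_add_le ((ζ l).1 y) S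
  rw [← a2, norm_mul, a3, Complex.norm_natCast, ← hl] at a4
  rw [hm, hf] at hS
  rw [(ζ l).2.isCharacter.mem_charCenter]
  refine le_antisymm ((ζ l).2.isCharacter.norm_le y) ?_
  rw [irr_deg, Complex.norm_natCast]
  push_cast at *
  linarith

end H9
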