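import Cfsg.Agent.H9.Pr5
import Cfsg.Agent.H2.RL2
import Cfsg.Agent.S0205

/-! Feit's theorem on groups with a faithful character of degree `p - 2`. -/

set_option autoImplicit false
set_option linter.style.haveILetI false
set_option linter.unusedSectionVars false

namespace H9
open Cfsg H3 MonoidAlgebra Subgroup Module
open scoped ComplexConjugate Pointwise MatrixGroups

variable {p : ℕ} {G : Type*} [Group G] [Finite G] [hp : Fact p.Prime] {x g i : G} {P : Subgroup G}
  {χ η : IrrCharacter G} {ψ : G → ℂ}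

theorem sq_iter {F : G → ℝ} (ho : (orderOf g).Coprime 2) (hF : ∀ k, F (g ^ 2 ^ k * g ^ 2 ^ k) = F (g ^ 2 ^ k) ^ 2)
    (h0 : 0 ≤ F g) : F g = 0 ∨ F g = 1 := by
  have e : ∀ k, F (g ^ 2 ^ k) = F g ^ 2 ^ k := fun k => by
    induction k with
    | zero => simp
    | succ k ih => rw [pow_succ, pow_mul, pow_mul, _root_.sq, hF, ih]
  have := e (orderOf g).totient
  rw [pow_eq_pow_iff_modEq.2 (Nat.ModEq.pow_totient ho.symm), pow_one] at this
  obtain ⟨n, hn⟩ := Nat.exists_eq_add_of_lt (Nat.one_lt_two_pow (Nat.totient_pos.2 (orderOf_pos g)).ne')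
  rw [hn, pow_succ] at this
  exact or_iff_not_imp_left.2 fun h => (pow_eq_one_iff_of_nonneg h0 (by omega)).1 ((mul_eq_right₀ h).1 this.symm)

theorem split_inv (hψ : IsCharacter G ψ) (hi : i ∈ center G) (h2 : i * i = 1) :
    IsCharacter G (fun x => (ψ x + ψ (i * x)) / 2) ∧ IsCharacter G (fun x => (ψ x - ψ (i * x)) / 2) := by
  refine hψ.induction (P := fun ψ => IsCharacter G (fun x => (ψ x + ψ (i * x)) / 2) ∧ IsCharacter G (fun x => (ψ x - ψ (i * x)) / 2))
    (by constructor <;> (simp; exact isCharacter_zero)) fun χ ψ a _ c => ?_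
  obtain ⟨z, -, hz⟩ := mem_charCenter.1 (a.center_le_charCenter hi)
  have : z * z = 1 := mul_right_cancel₀ a.deg_ne_zero (by rw [mul_assoc, ← hz, ← hz, mul_one, h2, one_mul])
  rcases mul_self_eq_one_iff.1 this with rfl | rfl
  · exact ⟨by convert a.isCharacter.add c.1 using 2; simp [hz]; ring, by convert c.2 using 2; simp [hz]⟩
  · exact ⟨by convert c.1 using 2; simp [hz]; ring, by convert a.isCharacter.add c.2 using 2; simp [hz]; ring⟩

theorem inner_idx [Fintype G] (T : Subgroup G) {φ ψ : G → ℂ} {c : ℂ} (h0 : ∀ x, x ∉ T → φ x * conj (ψ x) = 0)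
    (h1 : ∀ x ∈ T, φ x * conj (ψ x) = c) : T.index * classInner φ ψ = c := by
  classical
  refine mul_left_cancel₀ (Nat.cast_ne_zero.2 (Nat.card_pos (α := T)).ne') ?_
  rw [← mul_assoc, ← Nat.cast_mul, card_mul_index, card_mul_inner, ← Finset.sum_filter_of_ne (p := (· ∈ T)) fun x _ h =>
    by_contra fun r => h (h0 x r), Finset.sum_congr rfl fun x hx => h1 x (Finset.mem_filter.1 hx).2, Finset.sum_const,
    Nat.card_eq_fintype_card, Fintype.card_subtype, nsmul_eq_mul]

theorem sub_sum [Fintype G] (hψ : IsCharacter G ψ) (s : Finset (IrrCharacter G)) (h : ∀ χ ∈ s, classInner ψ χ.1 ≠ 0) :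
    IsCharacter G (ψ - ∑ χ ∈ s, χ.1) := by
  classical
  induction s using Finset.induction_on with
  | empty => simpa using hψ
  | insert a s ha ih =>
    rw [Finset.sum_insert ha, add_comm, ← sub_sub]
    refine (ih fun χ hχ => h χ (Finset.mem_insert_of_mem hχ)).sub_of_inner_ne_zero a.2 ?_
    rw [H3.inner_sub_left, H3.inner_sum_left, Finset.sum_eq_zero fun χ hχ => by rw [inner_irr, if_neg (by rintro rfl; exact ha hχ)],
      sub_zero]
    exact h a (Finset.mem_insert_self _ _)

theorem exists_m (G : Type*) [Group G] [Finite G] : ∃ m : ℕ, m.Coprime (Nat.card G) ∧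
    (∀ g : G, (orderOf g).Coprime 2 → g ^ m = g * g) ∧ ∀ g : G, g ^ 4 = 1 → g ^ m = g := by
  obtain ⟨k, o, ho, e⟩ := Nat.exists_eq_pow_mul_and_not_dvd (Nat.card_pos (α := G)).ne' 2 (by norm_num)
  have c : Nat.Coprime 2 o := (Nat.Prime.coprime_iff_not_dvd Nat.prime_two).2 ho
  obtain ⟨m, h1, h2⟩ := Nat.chineseRemainder (c.pow_left 2) 1 2
  refine ⟨m, e ▸ Nat.Coprime.mul_right (Nat.Coprime.pow_right _ ?_) ?_, fun g hg => ?_, fun g hg => ?_⟩
  · exact Nat.coprime_two_right.2 (Nat.odd_iff.2 (by unfold Nat.ModEq at h1; omega))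
  · rwa [Nat.Coprime, h2.gcd_eq]
  · rw [← _root_.sq, pow_eq_pow_iff_modEq]
    exact h2.of_dvd ((hg.pow_right k).dvd_of_dvd_mul_left (e ▸ orderOf_dvd_natCard g))
  · exact (pow_eq_pow_iff_modEq.2 (h1.of_dvd (orderOf_dvd_of_pow_eq_one hg))).trans (pow_one g)

theorem key_id (hs : ¬ p ^ 2 ∣ Nat.card G) (hd : p ∣ Nat.card G) (hl : charDegree χ.1 + 2 = p) (h3 : 3 < p)
    (hf : ∀ g, χ.1 g = χ.1 1 → g = 1) (hn : ¬ p ∣ Nat.card (center G)) (hZ : ¬ 2 ∣ Nat.card (center G)) {m : ℕ}
    (hm : m.Coprime (Nat.card G)) (m1 : ∀ g : G, (orderOf g).Coprime 2 → g ^ m = g * g) (hg : IsPRegular p g) :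
    χ.1 g * χ.1 g - χ.1 (g * g) = (charDegree χ.1 - 1) * χ.1 (g ^ m) := by
  classical
  haveI := Fintype.ofFinite G
  obtain ⟨σ, hσ⟩ := exists_gal_pow (G := G) hm
  have cc : ∀ χ : IrrCharacter G, (∀ g, χ.1 g = χ.1 1 → g = 1) → charCenter χ.1 = center G := fun χ hf =>
    χ.2.charCenter_eq_center (eq_bot_iff.2 fun g hg => hf g (χ.2.isCharacter.mem_charKer.1 hg))
  have e : ∀ g, (galIrr σ χ).1 g = χ.1 (g ^ m) := fun g => hσ _ χ.2.isGen g
  have e1 : (galIrr σ χ).1 1 = χ.1 1 := by rw [e, one_pow]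
  generalize hη : galIrr σ χ = η at e e1
  have ηf : ∀ g, η.1 g = η.1 1 → g = 1 := fun g h => hf g (σ.injective (by subst hη; exact h))
  obtain ⟨v, -, -⟩ := deg_sub_two hs hd hl h3 (by rwa [cc χ hf])
  obtain ⟨-, ⟨Y, cY, hY⟩, -⟩ := deg_sub_two (χ := η) hs hd (by rwa [dg_congr e1]) h3 (by rwa [cc η ηf])
  obtain ⟨S, A, hS, hA, s1, s2⟩ := χ.2.isCharacter.exists_sym_alt
  have hW := hA.add η.2.isCharacter
  have W : ∀ τ, PFix p G τ → (fun g => τ ((A + η.1) g)) = A + η.1 := fun τ hτ => funext fun g => by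
    by_cases hg : IsPRegular p g
    · exact hτ.apply hW.isGen hg (orderOf_dvd_natCard g)
    obtain ⟨v1, v2⟩ := v g hg
    obtain ⟨c, -, hc⟩ := mem_charCenter.1 v1
    rw [cc χ hf] at v1
    have o : (orderOf g).Coprime 2 := by
      obtain ⟨k, hk⟩ := isPElt_iff_pow.1 (isPElt_pp (p := p) g)
      have c1 : (p ^ k).Coprime 2 := ((Nat.coprime_primes hp.out Nat.prime_two).2 (by omega)).pow_left k
      have c2 := ((Nat.Prime.coprime_iff_not_dvd Nat.prime_two).2 hZ).symm
      refine (c1.mul_left c2).coprime_dvd_left ?_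
      rw [← pp_mul_pq (p := p) g]
      exact (Commute.orderOf_mul_dvd_mul_orderOf (mem_center_iff.1 v1 _)).trans
        (mul_dvd_mul (orderOf_dvd_of_pow_eq_one hk) (orderOf_dvd_natCard _ v1))
    have w : (A + η.1) g = c * c := by
      have a1 := s1 g
      have a2 := s2 g
      have g1 : χ.1 g = c * χ.1 (pp p g) := by rw [← hc, pq_mul_pp]
      have g2 : χ.1 (g * g) = c * (c * χ.1 (pp p g * pp p g)) := by
        rw [← hc, ← hc, ← mul_assoc (pq p g) (pp p g), pq_mul_pp, ← mul_assoc, ← mem_center_iff.1 v1 g, mul_assoc, pq_mul_pp]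
      rw [Pi.add_apply, e, m1 g o]
      rw [g1] at a1
      linear_combination (a1 - a2) / 2 + g2 / 2 + c * c / 2 * v2
    have : τ c = c := mul_right_cancel₀ χ.2.deg_ne_zero (by
      have := hτ.apply χ.2.isGen (isPRegular_pq (p := p) g) (orderOf_dvd_natCard _)
      rwa [← mul_one (pq p g), hc, map_mul, irr_deg, map_natCast, ← irr_deg] at this)
    rw [w, map_mul, this]
  have R := sub_sum hW Y fun ψ hψ => by
    obtain ⟨τ, hτ, e⟩ := hY ψ hψ
    obtain ⟨k, hk⟩ := hA.inner_nat η.2.isCharacter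
    rw [e, ← W τ hτ]
    refine (inner_gal _ η.2.isGen τ.toRingHom).trans_ne ((map_ne_zero _).2 ?_)
    rw [H3.inner_add_left, hk, η.2.inner_self]
    exact Nat.cast_add_one_ne_zero k
  have r : ∀ g, IsPRegular p g → (A + η.1 - ∑ χ ∈ Y, χ.1) g = A g + η.1 g - Y.card * η.1 g := fun g hg => by
    rw [Pi.sub_apply, Finset.sum_apply, Finset.sum_congr rfl (g := fun _ => η.1 g) fun ψ hψ => by
      obtain ⟨τ, hτ, e⟩ := hY ψ hψ
      rw [e]; exact hτ.apply η.2.isGen hg (orderOf_dvd_natCard g), Finset.sum_const, nsmul_eq_mul, Pi.add_apply]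
  have r1 := r 1 isPRegular_one
  have a1 := s1 1
  have a2 := s2 1
  rw [mul_one, irr_deg] at a2
  rw [irr_deg] at a1
  rw [R.deg, e1, irr_deg] at r1
  have d0 := (charDegree_ne_zero χ.2).pos
  generalize charDegree χ.1 = d at *
  generalize hn : charDegree (A + η.1 - ∑ χ ∈ Y, χ.1) = n at r1
  have k : (2 * n + 2 * Y.card * d : ℕ) = d * d + d := Nat.cast_injective (R := ℂ) (by
    push_cast; linear_combination 2 * r1 + a1 - a2)
  have cY' : 2 * Y.card = d + 1 := by nlinarith
  have n0 : n = 0 := by rw [cY'] at k; nlinarith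
  have := r g hg
  rw [R.eq_zero_of_deg (by rw [R.deg, hn, n0, Nat.cast_zero]), Pi.zero_apply, e] at this
  have cY' : (2 * Y.card : ℂ) = d + 1 := by exact_mod_cast cY'
  linear_combination s2 g - s1 g - 2 * this + χ.1 (g ^ m) * cY'

theorem dt_center' (h : IsIrrCharacter G ψ) {z : G} (hz : z ∈ charCenter ψ) :
    ∃ u : ℂˣ, ψ z = u * ψ 1 ∧ u ^ orderOf z = 1 ∧ dt ψ z = u ^ charDegree ψ := by
  obtain ⟨l, hl⟩ := exists_lin_of_le_charCenter h.deg_ne_zero (zpowers_le.2 hz)
  have e : (fun w : zpowers z => ψ w) = (charDegree ψ : ℂ) • lf l := funext fun w => by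
    have := hl w 1
    rw [mul_one, h.deg] at this
    rw [this, mul_comm]; rfl
  refine ⟨l ⟨z, mem_zpowers z⟩, by simpa using hl ⟨z, mem_zpowers z⟩ 1, ?_, ?_⟩
  · rw [← map_pow, ← orderOf_mk z (mem_zpowers z), pow_orderOf_eq_one, map_one]
  · rw [← h.isCharacter.dt_res _ ⟨z, mem_zpowers z⟩, e, (lf_ch l).dt_nsmul, dt_lf]; rfl

open scoped IsMulCommutative in
theorem perf_hom [Group.IsPerfect G] {A : Type*} [Group A] [IsMulCommutative A] (f : G →* A) (g : G) : f g = 1 :=
  Abelianization.commutator_subset_ker f Group.IsPerfect.mem_commutator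

theorem comm_of_sq (z2 : ∀ z ∈ center G, z * z = 1 → z = 1) {a b : G} (ha : a * a ∈ center G) (hb : b * b ∈ center G)
    (hab : a * b * (a * b) ∈ center G) : a * b = b * a := by
  have hc : a * b * a⁻¹ * b⁻¹ ∈ center G := by
    convert mul_mem (mul_mem hab (inv_mem ha)) (inv_mem hb) using 1
    calc a * b * a⁻¹ * b⁻¹ = a * b * a * ((a * a)⁻¹ * b) * (b * b)⁻¹ := by group
      _ = _ := by rw [← mem_center_iff.1 (inv_mem ha) b]; group
  refine mul_inv_eq_iff_eq_mul.1 (mul_inv_eq_one.1 (z2 _ hc ?_))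
  calc _ = (a * b * a⁻¹ * b⁻¹ * a) * b * a⁻¹ * b⁻¹ := by group
    _ = a * a * b * (a * a)⁻¹ * b⁻¹ := by rw [← mem_center_iff.1 hc a]; group
    _ = 1 := by rw [← mem_center_iff.1 ha b]; group

theorem feit_perfect [Group.IsPerfect G] (hs : ¬ p ^ 2 ∣ Nat.card G) (hd : p ∣ Nat.card G) (hl : charDegree χ.1 + 2 = p) (h5 : 5 < p)
    (hf : ∀ g, χ.1 g = χ.1 1 → g = 1) (hn : ¬ p ∣ Nat.card (center G)) :
    ∃ n, p = 2 ^ n + 1 ∧ center G = ⊥ ∧ Nonempty (G ≃* SL(2, GaloisField 2 n)) := by
  classical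
  haveI := Fintype.ofFinite G
  have ch := χ.2.isCharacter
  have cc : charCenter χ.1 = center G := χ.2.charCenter_eq_center (eq_bot_iff.2 fun g hg => hf g (ch.mem_charKer.1 hg))
  obtain ⟨k, hk⟩ : Odd (charDegree χ.1) := by
    have := hp.out.odd_of_ne_two (by omega)
    rw [← hl] at this
    simpa [Nat.odd_add] using this
  have z2 : ∀ z ∈ center G, z * z = 1 → z = 1 := fun z hz e => by
    obtain ⟨u, h1, h2, h3⟩ := dt_center' χ.2 (cc ▸ hz)
    obtain ⟨j, hj⟩ := orderOf_dvd_of_pow_eq_one ((_root_.sq z).trans e)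
    rw [perf_hom (dt χ.1), hk, pow_succ, pow_mul, hj, pow_mul, h2, one_pow, one_pow, one_mul] at h3
    exact hf z (by rw [h1, ← h3, Units.val_one, one_mul])
  have hZ : ¬ 2 ∣ Nat.card (center G) := fun d => by
    obtain ⟨z, hz⟩ := exists_prime_orderOf_dvd_card' 2 d
    have := z2 z z.2 (congrArg Subtype.val ((_root_.sq z).symm.trans (hz ▸ pow_orderOf_eq_one z)))
    rw [show z = 1 from Subtype.ext this, orderOf_one] at hz
    omega
  obtain ⟨m, hm, m1, m2⟩ := exists_m G
  have K := fun g => key_id (g := g) hs hd hl (by omega) hf hn hZ hm m1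
  obtain ⟨v, -, -⟩ := deg_sub_two hs hd hl (by omega) (by rwa [cc])
  have d1 := irr_deg χ
  have mc : ∀ g, ‖χ.1 g‖ = charDegree χ.1 → g ∈ center G := fun g h => by
    rwa [← cc, ch.mem_charCenter, d1, Complex.norm_natCast]
  generalize charDegree χ.1 = d at *
  have k2 : 2 ≤ k := by omega
  have r2 : ∀ g : G, g ^ 4 = 1 → IsPRegular p g := fun g h => isPRegular_of_pow_eq_one (fun d => by
    have := Nat.le_of_dvd (by norm_num) d; omega) h
  have cop : ∀ g x : G, x ∈ zpowers g → (orderOf g).Coprime 2 → (orderOf x).Coprime 2 := fun g x hx h =>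
    h.coprime_dvd_left (orderOf_dvd_of_mem_zpowers hx)
  have va : ∀ g, IsPRegular p g → (orderOf g).Coprime 2 → g ∉ center G → χ.1 g = 0 := fun g hg o n => by
    have d0 : (d : ℝ) ≠ 0 := by rw [hk]; positivity
    refine (sq_iter (F := fun x => ‖χ.1 x‖ / d) o (fun j => ?_) (by positivity)).elim (fun e => by simpa [d0] using e)
      fun e => absurd (mc g ((div_eq_one_iff_eq d0).1 e)) n
    have := K _ (isPRegular_pow hg (2 ^ j))
    rw [m1 _ (cop g _ (npow_mem_zpowers _ _) o)] at this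
    have : χ.1 (g ^ 2 ^ j) * χ.1 (g ^ 2 ^ j) = d * χ.1 (g ^ 2 ^ j * g ^ 2 ^ j) := by linear_combination this
    have := congrArg norm this
    rw [norm_mul, norm_mul, Complex.norm_natCast] at this
    field_simp
    linear_combination -this
  have vb : ∀ i, i * i = 1 → i ≠ 1 → χ.1 i = -1 := fun i h n => by
    have i4 : i ^ 4 = 1 := by rw [show 4 = 2 * 2 from rfl, pow_mul, _root_.sq i, h, one_pow]
    have := K i (r2 i i4)
    rw [h, m2 i i4, d1] at this
    exact eq_neg_of_add_eq_zero_left ((mul_eq_zero.1 (show (χ.1 i - χ.1 1) * (χ.1 i + 1) = 0 by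
      rw [d1]; linear_combination this)).resolve_left fun e => n (hf i (sub_eq_zero.1 e)))
  have vc : ∀ w : G, w ^ 4 = 1 → w * w = 1 := fun w h => by_contra fun n => by
    have e := K w (r2 w h)
    rw [m2 w h, vb _ (by rw [← h]; simp only [pow_succ, pow_zero, one_mul, mul_assoc]) n, hk] at e
    have k2 : (2 : ℝ) ≤ k := by exact_mod_cast k2
    have im : (χ.1 w).im = 0 := by_contra fun r => by
      have e1 := congrArg Complex.re e
      have e2 := congrArg Complex.im e
      simp at e1 e2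
      have : (χ.1 w).re = k := mul_right_cancel₀ r (by linarith)
      rw [this] at e1
      nlinarith [mul_self_nonneg (χ.1 w).im]
    obtain ⟨n, hn⟩ := χ.2.isGen.exists_int_of_pow (g := w) fun j hj => by
      have : j % 2 = 1 := by_contra fun r => n (by
        have : (orderOf w).Coprime 2 := (hj.coprime_dvd_left (by omega)).symm
        rw [← m1 w this, m2 w h, H2.eq_one_of_coprime_of_pow (p := 2) (k := 2) h this])
      rw [← pow_mod_orderOf, ← Nat.mod_mod_of_dvd _ (orderOf_dvd_of_pow_eq_one h), pow_mod_orderOf]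
      obtain r | r : j % 4 = 1 ∨ j % 4 = 3 := by omega
      · rw [r, pow_one]
      · rw [r, eq_inv_of_mul_eq_one_left ((pow_succ w 3).symm.trans h), ch.map_inv, Complex.conj_eq_iff_im.2 im]
    rw [hn] at e
    have e : n * n - -1 = ((2 * k + 1 : ℕ) - 1 : ℤ) * n := by exact_mod_cast e
    rcases Int.eq_one_or_neg_one_of_mul_eq_one (u := n) (v := 2 * k - n) (by push_cast at e; linarith) with rfl | rfl <;> omega
  have vd : ∀ i h : G, i * i = 1 → i ≠ 1 → h * i = i * h → (orderOf h).Coprime 2 → h ∈ center G := fun i h i2 i1 => by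
    have reg : ∀ h, h * i = i * h → IsPRegular p h := fun h c => by_contra fun r => by
      have c' : Commute (pp p h) i := by
        obtain ⟨j, hj⟩ := pp_mem_zpowers (p := p) h
        exact hj ▸ Commute.zpow_left c j
      have i4 := r2 i (by rw [show 4 = 2 * 2 from rfl, pow_mul, _root_.sq i, i2, one_pow])
      have := (v (pp p h * i) (by rwa [← pp_eq_one_iff, pp_mul (isPElt_pp h) i4 c', pp_eq_one_iff])).1
      rw [pq_mul (isPElt_pp h) i4 c', cc] at this
      exact i1 (z2 i this i2)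
    have ve : ∀ h, h * i = i * h → (orderOf h).Coprime 2 → h ∉ center G → χ.1 (i * h) = 0 ∨ ‖χ.1 (i * h)‖ = 2 * k := fun h c o n => by
      have k0 : (2 * k : ℝ) ≠ 0 := by positivity
      refine (sq_iter (F := fun x => ‖χ.1 (i * x)‖ / (2 * k)) o (fun j => ?_) (by positivity)).imp (fun e => by
        simpa [show k ≠ 0 by omega] using e) (div_eq_one_iff_eq k0).1
      have c' : Commute (h ^ 2 ^ j) i := Commute.pow_left c _
      have o' := cop h _ (npow_mem_zpowers h (2 ^ j)) o
      have n' : h ^ 2 ^ j * h ^ 2 ^ j ∉ center G := fun e => n (by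
        obtain ⟨l, hl⟩ := exists_pow_eq_self_of_coprime (x := h) (o.symm.pow_left (j + 1))
        rw [← hl, pow_succ, pow_mul, _root_.sq]; exact pow_mem e l)
      generalize h ^ 2 ^ j = x at c' o' n'
      have := K (i * x) (reg _ ((Commute.refl i).mul_left c'))
      rw [c'.symm.mul_pow, m1 x o', m2 i (by rw [show 4 = 2 * 2 from rfl, pow_mul, _root_.sq i, i2, one_pow]),
        c'.mul_mul_mul_comm, i2, one_mul, va _ (reg _ (c'.mul_left c')) (cop x _ (mul_mem (mem_zpowers x) (mem_zpowers x)) o') n',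
        sub_zero, hk, Nat.cast_add, Nat.cast_one, add_sub_cancel_right] at this
      have := congrArg norm this
      rw [norm_mul, norm_mul, Complex.norm_natCast] at this
      push_cast at this
      field_simp
      linear_combination -this
    have sp := split_inv (ch.res (cen1 i)) (i := ⟨i, mem_centralizer_singleton_iff.2 rfl⟩)
      (mem_center_iff.2 fun x => Subtype.ext (mem_centralizer_singleton_iff.1 x.2)) (Subtype.ext i2)
    have main : ∀ h, h * i = i * h → (orderOf h).Coprime 2 → h ∉ center G → ∃ (s : ℕ) (_ : Fintype (zpowers h)) (a : zpowers h → ℂ),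
        3 ≤ s ∧ s ∣ d * d ∧ IsCharacter _ a ∧ a 1 = k ∧ (∀ x, x.1 ∉ center G → a x = χ.1 (i * x) / 2) ∧
        (∀ n : ℕ, classInner a a = n → s * n ≤ k * d) ∧ ((∀ x, x.1 ∉ center G → a x = 0) → s ∣ k * k) := fun h c o n => by
      haveI := Fintype.ofFinite (zpowers h)
      have l : zpowers h ≤ cen1 i := zpowers_le.2 (mem_centralizer_singleton_iff.2 c)
      have ha := sp.1.comp (inclusion l)
      have hb := sp.2.comp (inclusion l)
      have hc := ch.res (zpowers h)
      have z : ∀ x : zpowers h, x.1 ∉ center G → χ.1 x = 0 := fun x hx =>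
        va _ (reg _ (mem_centralizer_singleton_iff.1 (l x.2))) (cop h _ x.2 o) hx
      have y : ∀ x : G, x ∈ center G → ∃ c : ℂ, c * conj c = 1 ∧ χ.1 x = c * d ∧ (χ.1 x + χ.1 (i * x)) / 2 = c * k := fun x hx => by
        obtain ⟨c, c1, c2⟩ := mem_charCenter.1 (cc.ge hx)
        have := c2 1
        rw [mul_one, d1] at this
        exact ⟨c, by simp [Complex.mul_conj, Complex.normSq_eq_norm_sq, c1], this, by
          rw [mem_center_iff.1 hx, c2, this, vb i i2 i1, hk]; push_cast; ring⟩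
      let T := (center G).subgroupOf (zpowers h)
      obtain ⟨n1, e1⟩ := hc.inner_nat hc
      obtain ⟨n2, e2⟩ := ha.inner_nat hb
      obtain ⟨n3, e3⟩ := ha.inner_nat ha
      have f1 := inner_idx T (φ := fun x => χ.1 x) (ψ := fun x => χ.1 x) (c := d * d) (fun x hx => by simp [z x hx]) fun x hx => by
        obtain ⟨c, c1, c2, -⟩ := y x hx
        simp only [c2, map_mul, map_natCast]; linear_combination d * d * c1
      have f2 := inner_idx T (φ := fun x => (χ.1 x + χ.1 (i * x)) / 2) (ψ := fun x => χ.1 x) (c := k * d) (fun x hx => by simp [z x hx])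
        fun x hx => by
          obtain ⟨c, c1, c2, c3⟩ := y x hx
          rw [c3, c2, map_mul, map_natCast]; linear_combination k * d * c1
      refine ⟨T.index, this, _, ?_, ⟨n1, by rw [e1] at f1; exact_mod_cast f1.symm⟩, ha, ?_, fun x hx => by simp [z x hx],
        fun n hn => ?_, fun h0 => ⟨n3, ?_⟩⟩
      · have t1 : T.index ≠ 1 := fun e => n ((index_eq_one.1 e).ge (mem_top ⟨h, mem_zpowers h⟩))
        have t2 : T.index.Coprime 2 := o.coprime_dvd_left (Nat.card_zpowers h ▸ T.index_dvd_card)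
        have := T.index_ne_zero_of_finite
        have : T.index ≠ 2 := fun e => by simp [e] at t2
        omega
      · simp [d1, vb i i2 i1, hk]
      · rw [show (fun x : zpowers h => χ.1 x) = (fun x : zpowers h => (χ.1 x + χ.1 (i * x)) / 2) +
          fun x : zpowers h => (χ.1 x - χ.1 (i * x)) / 2 from funext fun x => by simp only [Pi.add_apply]; ring, H3.inner_add_right] at f2
        erw [hn, e2] at f2
        have : T.index * (n + n2) = k * d := by exact_mod_cast f2
        rw [← this]; exact Nat.mul_le_mul_left _ (Nat.le_add_right _ _)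
      · have := inner_idx T (φ := fun x => (χ.1 x + χ.1 (i * x)) / 2) (ψ := fun x => (χ.1 x + χ.1 (i * x)) / 2) (c := k * k)
          (fun x hx => mul_eq_zero_of_left (h0 x hx) _) fun x hx => by
            obtain ⟨c, c1, c2, c3⟩ := y x hx
            rw [c3, map_mul, map_natCast]; linear_combination k * k * c1
        erw [e3] at this
        exact_mod_cast this.symm
    have z : ∀ h, h * i = i * h → (orderOf h).Coprime 2 → h ∉ center G → χ.1 (i * h) = 0 := fun h c o n =>
      (ve h c o n).resolve_right fun e => by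
        obtain ⟨s, _, a, s3, -, ha, a1, a2, a3, -⟩ := main h c o n
        have t : charCenter a = ⊤ := eq_top_iff.2 (by
          rintro ⟨_, j, rfl⟩ -
          refine zpow_mem (x := (⟨h, mem_zpowers h⟩ : zpowers h)) (ha.mem_charCenter.2 ?_) j
          rw [a2 _ n, a1, norm_div, e]; simp)
        have := a3 (k * k) (by
          have := inner_idx ⊤ (φ := a) (ψ := a) (c := k * k) (by simp) fun x _ => by
            rw [Complex.mul_conj, Complex.normSq_eq_norm_sq, ha.mem_charCenter.1 (t.ge trivial), a1]; simp [_root_.sq]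
          simpa using this)
        nlinarith [Nat.mul_le_mul_right (k * k) s3]
    intro c o
    by_contra n
    obtain ⟨s, _, a, s3, s1, ha, a1, a2, -, a4⟩ := main h c o n
    have := a4 fun x hx => by
      obtain ⟨_, j, rfl⟩ := x
      rw [a2 _ hx, z _ (Commute.zpow_left c j) (cop h _ (zpow_mem_zpowers h j) o) hx, zero_div]
    have c : (d * d).Coprime (k * k) := by
      have : d.Coprime k := by simp [hk]
      exact (this.mul_left this).mul_right (this.mul_left this)
    have := Nat.eq_one_of_dvd_coprimes c s1 this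
    omega
  have e2 : ∀ g : G, IsPElt 2 g → g * g = 1 := fun g hg => by
    obtain ⟨j, hj⟩ := isPElt_iff_pow.1 hg
    induction j generalizing g with
    | zero => simp_all
    | succ j ih => exact vc g (by
      rw [show 4 = 2 * 2 from rfl, pow_mul, _root_.sq, _root_.sq]
      have : (g * g) ^ 2 ^ j = 1 := by rw [← _root_.sq, ← pow_mul, ← pow_succ', hj]
      exact ih _ (isPElt_iff_pow.2 ⟨j, this⟩) this)
  haveI : Nontrivial G := Finite.one_lt_card_iff_nontrivial.1 (hp.out.one_lt.trans_le (Nat.le_of_dvd Nat.card_pos hd))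
  have ns := Group.IsPerfect.not_isSolvable G
  obtain ⟨T⟩ : Nonempty (Sylow 2 G) := inferInstance
  have ev : 2 ∣ Nat.card G := by_contra fun h2 => ns (Cfsg.Agent.S0205.result (G := G) (Nat.odd_iff.2 (by omega)))
  obtain ⟨n, n2, ⟨e⟩⟩ := H8.AC.prod (T := (T : Subgroup G)) (by
    refine ⟨fun t ht => ⟨⟨fun a b => Subtype.ext ?_⟩⟩, H1B.syl_top T, fun hc => ?_, fun e => ?_⟩
    · have t2 : t * t = 1 := by rw [← _root_.sq, ← ht, pow_orderOf_eq_one]
      have sq : ∀ g ∈ cen1 t, g * g ∈ center G := fun g hg => by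
        have := vd t (pq 2 g) t2 (by rintro rfl; simp at ht) (mem_centralizer_singleton_iff.1 (pq_mem hg))
          (isPRegular_iff_coprime.1 (isPRegular_pq g))
        rw [← pp_mul_pq (p := 2) g, mul_assoc, ← mul_assoc (pq 2 g), ← mem_center_iff.1 this, mul_assoc, ← mul_assoc,
          e2 _ (isPElt_pp g), one_mul]
        exact mul_mem this this
      exact comm_of_sq z2 (sq a a.2) (sq b b.2) (sq _ (mul_mem a.2 b.2))
    · have m : (Nat.card G).minFac = 2 := (Nat.minFac_eq_two_iff _).2 ev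
      refine T.ne_bot_of_dvd_card ev (eq_bot_iff.2 fun g hg => disjoint_def.1 (hc.isComplement' m).disjoint ?_ hg)
      haveI : IsMulCommutative T := ⟨⟨hc.commGroup.mul_comm⟩⟩
      exact perf_hom _ g
    · haveI := normalizer_eq_top_iff.1 e
      haveI := T.2.isNilpotent
      haveI := Cfsg.Agent.S0205.result (G := G ⧸ (T : Subgroup G)) (Nat.odd_iff.2 (by
        have := T.not_dvd_index
        unfold index at this; omega))
      exact ns (Group.isSolvable_of_ker_le_range (T : Subgroup G).subtype (QuotientGroup.mk' (T : Subgroup G)) (by simp)))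
  have zb : center G = ⊥ := eq_bot_iff.2 fun z hz => by
    obtain ⟨g, hg⟩ := e.surjective (1, ⟨z, hz⟩)
    have := perf_hom ((MonoidHom.snd _ _).comp e.toMonoidHom) g
    exact congrArg Subtype.val ((congrArg Prod.snd hg).symm.trans this)
  haveI : Unique (center G) := zb ▸ inferInstance
  have e := e.trans MulEquiv.prodUnique
  refine ⟨n, ?_, zb, ⟨e⟩⟩
  have c := Nat.card_congr e.toEquiv
  rw [H4.card_sl2, GaloisField.card 2 n (by omega)] at c
  have d1' : 2 ^ n ∣ Nat.card T := T.pow_dvd_card_of_pow_dvd_card (c ▸ mul_assoc (2 ^ n) _ _ ▸ dvd_mul_right _ _)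
  haveI := Fintype.ofFinite T
  obtain ⟨s, hs⟩ := (ch.res T).inner_nat isCharacter_one
  have := card_mul_inner (fun u : (T : Subgroup G) => χ.1 u) fun _ => 1
  rw [hs, ← Finset.add_sum_erase _ _ (Finset.mem_univ 1), Finset.sum_congr rfl (g := fun _ => (-1 : ℂ)) fun u hu => by
    simp [vb u (e2 _ (isPElt_of_mem T.2 u.2)) (by simpa using Finset.ne_of_mem_erase hu)], Finset.sum_const,
    Finset.card_erase_of_mem (Finset.mem_univ _), Finset.card_univ, ← Nat.card_eq_fintype_card, nsmul_eq_mul,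
    Nat.cast_pred Nat.card_pos, coe_one, d1, map_one, mul_one] at this
  have : Nat.card T * (s + 1) = d + 1 := Nat.cast_injective (R := ℂ) (by push_cast; linear_combination this)
  have := Nat.le_of_dvd (by omega) (d1'.trans (Dvd.intro _ this))
  have q0 : 1 < 2 ^ n := Nat.one_lt_two_pow (by omega)
  rw [c, hp.out.dvd_mul, hp.out.dvd_mul] at hd
  rcases hd with (h | h) | h <;> have := Nat.le_of_dvd (by omega) h <;> omega

end H9
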