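import Cfsg.Agent.H9.Pr6

/-! Feit's theorem on groups with a faithful character of degree `p - 2`: the reduction to perfect groups. -/

set_option autoImplicit false
set_option linter.style.haveILetI false
set_option linter.unusedSectionVars false

namespace H9
open Cfsg H3 MonoidAlgebra Subgroup Module
open scoped ComplexConjugate Pointwise MatrixGroups

variable {p : ℕ} {G : Type*} [Group G] [Finite G] [hp : Fact p.Prime] {χ : IrrCharacter G} {ψ : G → ℂ} {S : Sylow p G} {N : Subgroup G}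

theorem syl_le_of_dvd (hP : Nat.card S = p) [hN : N.Normal] (h : p ∣ Nat.card N) : (S : Subgroup G) ≤ N := by
  obtain ⟨x, hx⟩ := exists_prime_orderOf_dvd_card' p h
  obtain ⟨k, -, hk⟩ := exists_conj_mem_sylow (H7.syl_to_H1 (H1B.syl_top S)) (x := (x : G))
    (isPElt_of_pow_eq_one (by rw [← hx, ← coe_pow, pow_orderOf_eq_one, coe_one])) trivial
  rw [← zpowers_eq_of_card_p hP hk (by
    rw [Ne, conj_eq_one_iff, OneMemClass.coe_eq_one]; rintro rfl; exact hp.out.ne_one (by simpa using hx.symm)), zpowers_le]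
  exact hN.conj_mem _ x.2 k

theorem syl_normal_of_cen [hN : N.Normal] (h1 : (S : Subgroup G) ≤ N) (h2 : (S : Subgroup G) ≤ cen N) : (S : Subgroup G).Normal :=
  ⟨fun u hu y => (H7.syl_to_H1 (H1B.syl_top S)).le_of_le_normalizer (Q := zpowers (y * u * y⁻¹))
    (isPElt_iff_zpowers.1 ((isPElt_conj _ _).2 (isPElt_of_mem S.2 hu))) le_top
    (zpowers_le.2 (centralizer_le_normalizer _ fun v hv => (h2 hv _ (hN.conj_mem _ (h1 hu) y)).symm)) (mem_zpowers _)⟩

theorem syl_center (hP : Nat.card S = p) (h : nrm (S : Subgroup G) ≤ cen (S : Subgroup G)) (hψ : IsCharacter G ψ)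
    (hl : charDegree ψ + 1 < p) (hf : ∀ g, ψ g = ψ 1 → g = 1) : (S : Subgroup G) ≤ center G := fun u hu => by
  haveI := Fintype.ofFinite G
  have hs : ¬ p ^ 2 ∣ Nat.card G := fun d => by
    have := Nat.le_of_dvd hp.out.pos (hP ▸ S.pow_dvd_card_of_pow_dvd_card d)
    nlinarith [hp.out.two_le]
  haveI : IsMulCommutative S := ⟨⟨(isCyclic_of_prime_card hP).commGroup.mul_comm⟩⟩
  refine mem_center_iff.2 fun g => (mul_inv_eq_iff_eq_mul.1 (mul_inv_eq_one.1 (hf _ (hψ.eq_deg_of_constituents fun η a b => ?_)))).symm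
  have := hψ.deg_le_of_inner_ne_zero a b a.isCharacter.deg hψ.deg
  haveI := a.isClassFunction.charCenter_normal
  refine a.isCharacter.mem_charKer.1 (a.isClassFunction.commutator_mem_charKer (syl_le_of_dvd hP (dvd_center_of_nrm (χ := ⟨η, a⟩) hs
    (hP ▸ card_subgroup_dvd_card _) (by change charDegree η + 1 < p; omega) fun P hc x hx v hv => ?_) hu) g)
  refine (mul_inv_eq_iff_eq_mul.1 (mul_inv_eq_one.1 (disjoint_def.1 (MonoidHom.ker_transferSylow_disjoint S h P
    (IsPGroup.of_card (hc.trans (pow_one p).symm))) ?_ (mul_mem (conj_mem_of_nrm hx hv) (inv_mem hv))))).symm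
  rw [MonoidHom.mem_ker, map_mul, map_mul, map_mul, mul_comm' (_ : S) (MonoidHom.transferSylow S h v)]
  simp

theorem feit_deg (hP : Nat.card S = p) (hnn : ¬ (S : Subgroup G).Normal) (hl : charDegree χ.1 + 2 = p) (h5 : 5 < p)
    (hf : ∀ g, χ.1 g = χ.1 1 → g = 1) : ∃ n, p = 2 ^ n + 1 ∧ Nonempty (G ≃* SL(2, GaloisField 2 n) × center G) := by
  haveI := Fintype.ofFinite G
  have hd : p ∣ Nat.card G := hP ▸ card_subgroup_dvd_card _
  have hs : ¬ p ^ 2 ∣ Nat.card G := fun d => by
    have := Nat.le_of_dvd hp.out.pos (hP ▸ S.pow_dvd_card_of_pow_dvd_card d)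
    nlinarith
  have cc : charCenter χ.1 = center G := χ.2.charCenter_eq_center (eq_bot_iff.2 fun g hg => hf g (χ.2.isCharacter.mem_charKer.1 hg))
  have hn : ¬ p ∣ Nat.card (center G) := fun d => hnn (normal_of_le_center (syl_le_of_dvd hP d))
  obtain ⟨v, -, P, cP, r2⟩ := deg_sub_two hs hd hl (by omega) (by rwa [cc])
  obtain ⟨T, hT⟩ := (IsPGroup.of_card (cP.trans (pow_one p).symm)).exists_le_sylow
  have cT : Nat.card T = p := (Nat.card_congr (T.equiv S).toEquiv).trans hP
  obtain rfl := eq_of_le_of_card_ge hT (cT.trans cP.symm).le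
  replace hnn : ¬ (T : Subgroup G).Normal := fun h => hnn (by
    haveI := T.unique_of_normal h
    rwa [Subsingleton.elim S T])
  have nc : ∀ H : Subgroup G, H.Normal → (T : Subgroup G) ≤ H → ∃ x ∈ H, x ∈ nrm (T : Subgroup G) ∧ x ∉ cen (T : Subgroup G) := fun H _ l => by
    by_contra! r
    have := syl_center (S := T.subtype l) ((Nat.card_congr (subgroupOfEquivOfLe l).toEquiv).trans cT) (fun x hx u hu => Subtype.ext
      (r x x.2 (mem_nrm_of_conj fun y hy => conj_mem_of_nrm hx (x := ⟨y, l hy⟩) hy) u hu)) (χ.2.isCharacter.res H)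
      (by rw [show charDegree (fun x : H => χ.1 x) = charDegree χ.1 from dg_congr (by simp)]; omega) fun g e => Subtype.ext (hf g e)
    exact hnn (syl_normal_of_cen l fun u hu y hy => congrArg Subtype.val (mem_center_iff.1 (this (x := ⟨u, l hu⟩) hu) ⟨y, hy⟩))
  have lK : (T : Subgroup G) ≤ commutator G := syl_le_of_dvd cT (by
    obtain ⟨x, -, h1, h2⟩ := nc ⊤ inferInstance le_top
    by_contra r
    refine h2 fun u hu => (mul_inv_eq_iff_eq_mul.1 (mul_inv_eq_one.1 (eq_one_of_isPElt_of_isPRegular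
      (isPElt_of_mem T.2 (mul_mem (conj_mem_of_nrm h1 hu) (inv_mem hu))) (isPRegular_of_mem r ?_)))).symm
    exact commutator_mem_commutator (mem_top x) (mem_top u))
  have cH : cen (T : Subgroup G) ≤ commutator G ⊔ center G := fun y hy => by
    haveI := Finite.one_lt_card_iff_nontrivial.1 (hp.out.one_lt.trans_eq cT.symm)
    obtain ⟨u, hu⟩ := exists_ne (1 : T)
    have c : Commute (u : G) (pq p y) := pq_mem hy u u.2
    have := (v (u * pq p y) (by
      rw [← pp_eq_one_iff, pp_mul (isPElt_of_mem T.2 u.2) (isPRegular_pq y) c]; simpa using hu)).1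
    rw [pq_mul (isPElt_of_mem T.2 u.2) (isPRegular_pq y) c, cc] at this
    rw [← pp_mul_pq (p := p) y]
    exact mul_mem_sup (lK ((H7.syl_to_H1 (H1B.syl_top T)).le_of_le_normalizer (isPElt_iff_zpowers.1 (isPElt_pp y)) le_top
      (zpowers_le.2 (centralizer_le_normalizer _ (pp_mem hy))) (mem_zpowers _))) this
  have e : commutator G ⊔ center G = ⊤ := by
    obtain ⟨x, h0, h1, h2⟩ := nc _ inferInstance (lK.trans le_sup_left : _ ≤ commutator G ⊔ center G)
    rw [eq_top_iff, ← T.normalizer_sup_eq_top' lK]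
    refine sup_le (fun y hy => ?_) le_sup_left
    by_cases r : y ∈ cen (T : Subgroup G)
    · exact cH r
    · exact (mul_mem_cancel_right h0).1 (cH ((mul_mem_iff_of_index_two r2 (a := ⟨y, hy⟩) (b := ⟨x, h1⟩)).2 (iff_of_false r h2)))
  have zc : ∀ A : Subgroup G, center G ≤ cen A := fun A z hz g _ => mem_center_iff.1 hz g
  haveI : Group.IsPerfect (commutator G) := isPerfect_iff.2 (by
    rw [← H7.comm_sup_cen (zc _) ((zc _).trans (centralizer_le_normalizer _)), e, commutator_comm,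
      ← H7.comm_sup_cen (zc _) ((zc _).trans (centralizer_le_normalizer _)), e]; rfl)
  obtain ⟨n, hn, zb, ⟨f⟩⟩ := feit_perfect (p := p) (χ := ⟨_, χ.2.res_of_center_sup cc.ge ((sup_comm _ _).trans e)⟩)
    (fun d => hs (d.trans (card_subgroup_dvd_card _))) (cT ▸ card_dvd_of_le lK)
    ((congrArg (· + 2) (dg_congr (by simp))).trans hl) h5 (fun g e => Subtype.ext (hf g e)) fun d =>
      hnn (syl_normal_of_cen lK fun u hu y hy => congrArg Subtype.val (mem_center_iff.1 (syl_le_of_dvd (S := T.subtype lK)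
        ((Nat.card_congr (subgroupOfEquivOfLe lK).toEquiv).trans cT) d (x := ⟨u, lK hu⟩) hu) ⟨y, hy⟩))
  obtain ⟨φ⟩ := H2.exists_prod (le_centralizer_iff.1 (zc (commutator G))) (eq_bot_iff.2 fun z hz =>
    congrArg Subtype.val (zb.le (x := ⟨z, hz.1⟩) (mem_center_iff.2 fun g => Subtype.ext (mem_center_iff.1 hz.2 g))))
  exact ⟨n, hn, ⟨(topEquiv.symm.trans ((MulEquiv.subgroupCongr e.symm).trans φ)).trans (f.prodCongr (MulEquiv.refl _))⟩⟩

end H9
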