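import Cfsg.Agent.H9.Exc2

/-! # Watanabe's theorem on blocks with abelian defect group -/

namespace H9
open Cfsg H3 MonoidAlgebra Subgroup
open scoped ComplexConjugate Pointwise
set_option linter.style.haveILetI false
set_option linter.unusedSectionVars false

universe u
variable {p : ℕ} {M : Ideal AlgInt} {G K : Type*} [Group G] [Finite G] [Group K] [Finite K] [PMod p M] [Fact p.Prime]
variable {B : Bl M G} {P Q : Subgroup G} {b : (RF M)[G]} {u : G}

open Classical in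
/-- The rank of the block of `C(Q)` below `(P, b)`. -/
noncomputable def lq {p : ℕ} {M : Ideal AlgInt} [PMod p M] (P : Subgroup G) (b : (RF M)[G]) (Q : Subgroup G) : ℕ :=
  if h : ∃ c : Bl M (cen Q), Sub Q c.E P b then blockRank p h.choose.1 else 0

theorem lq_eq (hb : BP P b) {ψ : K →* G} (hψ : Function.Injective ψ) (hr : ψ.range = cen Q) {c : Bl M K}
    (h : Sub Q (push (RF M) ψ c.e) P b) : blockRank p c.1 = lq P b Q := by
  have h' : ∃ c : Bl M (cen Q), Sub Q c.E P b := by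
    obtain ⟨c', e⟩ := (h.bp_left hb).blk
    exact ⟨c', by rw [Bl.E, e]; exact h⟩
  obtain ⟨e, he⟩ := exists_equiv_of_range hψ (subtype_injective (cen Q)) (by rw [hr, range_subtype])
  rw [lq, dif_pos h', Bl.eq_map_of_push (subtype_injective _) he (h.unique hb h'.choose_spec), Bl.rank_map]

theorem rank_sbl_eq_lq (hb : BP P b) (hu : u ∈ P) : blockRank p (sbl P b u).1 = lq P b (zpowers u) :=
  lq_eq hb (subtype_injective _) (by rw [range_subtype, cen_zpowers]) (hb.sub_sbl hu)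

theorem rank_sbl_sub (hb : BP P b) (hab : P ≤ cen P) (hQ : Q ≤ P) {S : Subgroup G} (hS : S = cen Q)
    {b' : (RF M)[S]} (hb' : BP (P.subgroupOf S) b') (e : push (RF M) S.subtype b' = b) {x : S} (hx : (x : G) ∈ P) :
    blockRank p (sbl (P.subgroupOf S) b' x).1 = lq P b (Q ⊔ zpowers (x : G)) := by
  subst hS
  have hP : P ≤ cen Q := le_cen_of_comm hab hQ
  have hm : (P.subgroupOf (cen Q)).map (cen Q).subtype = P := by rw [subgroupOf_map_subtype, inf_eq_left.2 hP]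
  have hr : ((cen Q).subtype.comp (cen1 x).subtype).range = cen (Q ⊔ zpowers (x : G)) := by
    rw [cen_sup, cen_zpowers]
    ext g
    simp only [MonoidHom.mem_range, Subgroup.mem_inf, mem_cen1]
    constructor
    · rintro ⟨⟨y, hy⟩, rfl⟩
      exact ⟨y.2, congrArg Subtype.val (mem_cen1.1 hy)⟩
    · rintro ⟨h1, h2⟩
      exact ⟨⟨⟨g, h1⟩, mem_cen1.2 (Subtype.ext h2)⟩, rfl⟩
  have hi : Function.Injective ((cen Q).subtype.comp (cen1 x).subtype) :=
    (subtype_injective _).comp (subtype_injective _)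
  have hl : Q ⊔ zpowers (x : G) ≤ P := sup_le hQ (zpowers_le.2 hx)
  have hn := (hb'.sub_sbl (u := x) hx).nsub hb' (by
    refine le_trans ?_ (cen_le_nrm _)
    rw [cen_zpowers]
    exact fun y hy => mem_cen1.2 (Subtype.ext (mem_cen1.1 (by
      have := cen_anti (zpowers_le.2 hx) (hab hy); rwa [cen_zpowers] at this))))
  refine lq_eq hb hi hr (NSub.sub ⟨⟨hb.isPGroup.to_le hl, isBlk_push hi hr _⟩, hb, hl,
    (le_cen_of_comm hab hl).trans (cen_le_nrm _), ?_, ?_⟩) <;> rw [← push_push]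
  · have := push_mem_Fix (cen Q).subtype hn.fix
    rwa [hm] at this
  · have := br_push (subtype_injective (cen Q)) (P.subgroupOf (cen Q)) (sbl (P.subgroupOf (cen Q)) b' x).E
    rw [hm] at this
    rw [this, ← e, ← map_mul, hn.mul]

theorem subgroupOf_le_cen (hab : P ≤ cen P) (S : Subgroup G) : P.subgroupOf S ≤ cen (P.subgroupOf S) :=
  fun _ hx _ hy => Subtype.ext (hab hx _ hy)

theorem mem_stab_sub {S : Subgroup G} (hP : P ≤ S) {b' : (RF M)[S]} (e : push (RF M) S.subtype b' = b) {x : S} :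
    x ∈ nrm (P.subgroupOf S) ⊓ stab b' ↔ (x : G) ∈ nrm P ⊓ stab b := by
  rw [← map_mem_stab_iff (subtype_injective S), subgroupOf_map_subtype, inf_eq_left.2 hP, e]; rfl

theorem lq_step (h : MaxP B P b) (hab : P ≤ cen P) (hQ : Q ≤ P) (hu : u ∈ P)
    (hT : cen Q ⊓ (nrm P ⊓ stab b) ≤ cen1 u)
    (ih : ∀ (f : Bl M (cen Q)) P' b' u', MaxP f P' b' → P' ≤ cen P' → u' ∈ P' → nrm P' ⊓ stab b' ≤ cen1 u' →
      blockRank p (sbl P' b' u').1 = blockRank p f.1) : lq P b (Q ⊔ zpowers u) = lq P b Q := by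
  obtain ⟨a, ha⟩ := exists_sub h.bp hQ
  obtain ⟨f, rfl⟩ := (ha.bp_left h.bp).blk
  have hP := le_cen_of_comm hab hQ
  obtain ⟨b', e, h'⟩ := h.comap_cen hP rfl ha
  rw [← lq_eq h.bp (subtype_injective _) (range_subtype _) ha,
    ← rank_sbl_sub h.bp hab hQ rfl h'.bp e (x := ⟨u, hP hu⟩) hu]
  exact ih f _ b' _ h' (subgroupOf_le_cen hab _) hu fun x hx =>
    mem_cen1.2 (Subtype.ext (mem_cen1.1 (hT ⟨x.2, (mem_stab_sub hP e).1 hx⟩)))

/-- Fusion-stable linear characters. -/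
def stL {p : ℕ} {M : Ideal AlgInt} [PMod p M] (P : Subgroup G) (b : (RF M)[G]) : Subgroup (P →* ℂˣ) where
  carrier := {l | ∀ u v : P, FC P b u v → l v = l u}
  one_mem' := fun _ _ _ => rfl
  mul_mem' := fun h h' u v e => by simp only [MonoidHom.mul_apply, h u v e, h' u v e]
  inv_mem' := fun h u v e => by simp only [MonoidHom.inv_apply, h u v e]

theorem MaxP.exists_stL (h : MaxP B P b) (hab : P ≤ cen P) {w : P} (h1 : w ≠ 1) (hT : nrm P ⊓ stab b ≤ cen1 w.1) :
    ∃ l ∈ stL P b, l w ≠ 1 := by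
  let E := aE P.subtype (nrm P ⊓ stab b)
  haveI := Fintype.ofFinite E
  haveI := Fintype.ofFinite (P →* ℂˣ)
  have hE : Nat.card E = ee P b := card_aE (subtype_injective _) (range_subtype _) inf_le_left
  have hw : w ^ ee P b ≠ 1 := fun e => h1 (by
    obtain ⟨k, hk⟩ := IsPGroup.iff_orderOf.1 h.isPGroup w
    exact orderOf_eq_one_iff.1 (Nat.Coprime.eq_one_of_dvd (m := ee P b) (by
      rw [hk]; exact ((Fact.out : p.Prime).coprime_iff_not_dvd.2 (h.not_dvd_ee hab)).pow_left _)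
      (orderOf_dvd_of_pow_eq_one e)))
  obtain ⟨m, hm⟩ : ∃ m : P →* ℂˣ, m (w ^ ee P b) ≠ 1 := by
    by_contra! hn
    have := sum_lin (fun a b : P => Subtype.ext (hab b.2 _ a.2)) hw
    simp [hn] at this
  refine ⟨∏ σ : E, tw m σ, fun x y hxy => ?_, ?_⟩
  · obtain ⟨n, hn, e⟩ := (h.fc_iff_of_comm hab x.2).1 hxy
    obtain ⟨τ, hτ⟩ := exists_aut (subtype_injective P) (range_subtype P) hn.1
    obtain rfl : τ x = y := Subtype.ext ((hτ x).trans e)
    simp only [MonoidHom.finsetProd_apply, tw_apply]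
    exact Equiv.prod_comp (Equiv.mulRight (⟨τ, n, hn, hτ⟩ : E)) fun σ : E => m (σ.1 x)
  · rw [MonoidHom.finsetProd_apply, Finset.prod_congr rfl (g := fun _ => m w), Finset.prod_const, Finset.card_univ,
      ← Nat.card_eq_fintype_card, hE, ← map_pow]
    · exact hm
    · rintro ⟨σ, t, ht, e⟩ _
      rw [tw_apply, show σ w = w from Subtype.ext ((e w).trans (mem_cen1.1 (hT ht)))]

theorem MaxP.sum_stL [Fintype P] (h : MaxP B P b) (hab : P ≤ cen P) {l : stL P b} (h1 : l ≠ 1) :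
    ∑ x : P, (l.1 x : ℂ) * (blockRank p (sbl P b x).1 / cnt P b x) = 0 := by
  classical
  haveI := Fintype.ofFinite G
  obtain ⟨X, hX, -⟩ := h.bp.exists_reps (one_mem _)
  obtain ⟨_, ha⟩ := h.exists_action (stL P b).subtype fun γ => γ.2
  let η : G → ℂ := extendByZero P fun x => (l.1 x : ℂ)
  have hη : ∀ x : P, η x = l.1 x := fun x => by simp [η, extendByZero]
  have e1 := hX.sum_eq h.bp (fun x => η x * (blockRank p (sbl P b x).1 / cnt P b x)) fun x y e => by
    rw [e.rank_eq h, e.cnt_eq h.bp, hη ⟨x, e.mem⟩, hη ⟨y, e.mem'⟩, l.2 ⟨x, e.mem⟩ ⟨y, e.mem'⟩ e]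
  rw [Finset.sum_subtype (p := (· ∈ P)) _ (by simp)] at e1
  simp only [← hη]
  rw [e1, Finset.sum_congr rfl (g := fun x => ∑ χ with χ ∈ B.1, η x * classInner (TS P b x χ.1) χ.1), Finset.sum_comm]
  · refine Finset.sum_eq_zero fun χ hχ => ?_
    have hχ := (Finset.mem_filter.1 hχ).2
    have hn : (l • (⟨χ, hχ⟩ : B.1)).1 ≠ χ := fun e => h1 (Subtype.ext (MonoidHom.ext fun x => by
      have := (ha l ⟨χ, hχ⟩).1 x
      rw [e] at this
      have h0 := h.TS_ne_zero x.2 hχ (Or.inr (hab x.2))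
      exact Units.val_eq_one.1 (smul_left_injective ℂ h0 (this.symm.trans (one_smul _ _).symm))))
    have := h.inner_eq_sum hX (l • (⟨χ, hχ⟩ : B.1)).1.2.isClassFunction χ.1
    rw [blockPart_irr_of_mem (l • (⟨χ, hχ⟩ : B.1)).2, (l • (⟨χ, hχ⟩ : B.1)).1.2.inner_of_ne χ.2
      fun e => hn (Subtype.ext e)] at this
    rw [this]
    refine Finset.sum_congr rfl fun x hx => ?_
    rw [(ha l ⟨χ, hχ⟩).1 ⟨x, hX.mem x hx⟩, H3.inner_smul_left, hη ⟨x, hX.mem x hx⟩]; rfl
  · intro x hx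
    have := h.bp.cnt_ne_zero (hX.mem x hx)
    rw [← Finset.mul_sum, (h.ind_sbl (hX.mem x hx)).sum_inner_TT (isPElt_of_mem h.isPGroup (hX.mem x hx)), nsmul_eq_mul]
    field_simp

theorem watanabe_aux (n : ℕ) : ∀ {G : Type u} [Group G] [Finite G], Nat.card G < n → ∀ (B : Bl M G) P b u,
    MaxP B P b → P ≤ cen P → u ∈ P → nrm P ⊓ stab b ≤ cen1 u → blockRank p (sbl P b u).1 = blockRank p B.1 := by
  induction n with
  | zero => simp
  | succ n ih =>
  intro G _ _ hG B P b u h hab hu hT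
  classical
  haveI := Fintype.ofFinite P
  haveI := Fintype.ofFinite (stL P b)
  let F : P → ℂ := fun x => blockRank p (sbl P b x).1 / cnt P b x
  let u' : P := ⟨u, hu⟩
  have cn : ∀ x ∈ P, cnt P b x = (cen1 x ⊓ (nrm P ⊓ stab b)).relIndex (nrm P ⊓ stab b) := fun x hx => by
    rw [cnt_eq_relIndex fun _ => h.fc_iff_of_comm hab hx, inf_relIndex_right]
  have ce : ∀ x, cen1 (u * x) ⊓ (nrm P ⊓ stab b) = cen1 x ⊓ (nrm P ⊓ stab b) := fun x => by
    ext t
    rw [Subgroup.mem_inf, Subgroup.mem_inf (p := cen1 x)]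
    refine and_congr_left fun ht => ?_
    have := mem_cen1.1 (hT ht)
    rw [mem_cen1, mem_cen1, show t * (u * x) * t⁻¹ = t * u * t⁻¹ * (t * x * t⁻¹) by group, this, mul_right_inj]
  have st : ∀ x ∈ P, ¬ nrm P ⊓ stab b ≤ cen1 x → lq P b (zpowers x ⊔ zpowers u) = lq P b (zpowers x) :=
    fun x hx hn => lq_step h hab (zpowers_le.2 hx) hu (inf_le_right.trans hT) (ih (by
      have : cen (zpowers x) ≠ ⊤ := fun e => hn (by rw [← cen_zpowers, e]; exact le_top)
      have := H1.card_lt_of_ne_top this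
      omega))
  have hF : ∀ x : P, ¬ nrm P ⊓ stab b ≤ cen1 x.1 → F (u' * x) = F x := fun x hn => by
    have hux := mul_mem hu x.2
    have e : zpowers (u * x) ⊔ zpowers u = zpowers x.1 ⊔ zpowers u := by
      refine le_antisymm (sup_le (zpowers_le.2 (mul_mem (mem_sup_right (mem_zpowers _)) (mem_sup_left (mem_zpowers _))))
        le_sup_right) (sup_le (zpowers_le.2 ?_) le_sup_right)
      exact (mul_mem_cancel_left (mem_sup_right (mem_zpowers u))).1 (mem_sup_left (mem_zpowers _))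
    change ((blockRank p (sbl P b (u * x)).1 : ℂ) / cnt P b (u * x)) = blockRank p (sbl P b x).1 / cnt P b x
    rw [cn _ hux, cn _ x.2, ce, rank_sbl_eq_lq h.bp hux, rank_sbl_eq_lq h.bp x.2, ← st _ x.2 hn, ← e,
      st _ hux fun h' => hn (inf_eq_right.1 (by rw [← ce, inf_eq_right.2 h']))]
  have key : ∑ x : P, (F (u' * x) - F x) * ∑ l : stL P b, (l.1 x : ℂ) = 0 := by
    simp only [Finset.mul_sum]
    rw [Finset.sum_comm]
    refine Finset.sum_eq_zero fun l _ => ?_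
    have := Equiv.sum_comp (Equiv.mulLeft u') fun x => (l.1 x : ℂ) * F x
    simp only [Equiv.coe_mulLeft, map_mul, Units.val_mul, mul_assoc, ← Finset.mul_sum] at this
    simp only [mul_comm _ (l.1 _ : ℂ), mul_sub, Finset.sum_sub_distrib]
    by_cases h1 : l = 1
    · subst h1; simpa [sub_eq_zero] using this
    · rw [h.sum_stL hab h1] at this ⊢
      rw [(mul_eq_zero.1 this).resolve_left (Units.ne_zero _), sub_zero]
  rw [Finset.sum_eq_single 1 (fun x _ h1 => ?_) (by simp)] at key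
  · have c0 : (Fintype.card (stL P b) : ℂ) ≠ 0 := Nat.cast_ne_zero.2 Fintype.card_ne_zero
    simp only [mul_one, map_one, Units.val_one, Finset.sum_const, Finset.card_univ, nsmul_eq_mul, mul_eq_zero, c0,
      or_false, sub_eq_zero, F] at key
    have := ce 1
    rw [mul_one] at this
    rw [cn _ hu, cn _ (1 : P).2, this, OneMemClass.coe_one, h.rank_sbl_one, div_left_inj'] at key
    · exact_mod_cast key
    · exact Nat.cast_ne_zero.2 (relIndex_ne_zero' _ _)
  · by_cases hx : nrm P ⊓ stab b ≤ cen1 x.1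
    · obtain ⟨l, hl, hl'⟩ := h.exists_stL hab h1 hx
      let ev : stL P b →* ℂ := ⟨⟨fun l => l.1 x, by simp⟩, by simp⟩
      rw [show ∑ l : stL P b, (l.1 x : ℂ) = 0 from sum_hom_units_eq_zero ev fun e =>
        hl' (Units.val_eq_one.1 (DFunLike.congr_fun e ⟨l, hl⟩)), mul_zero]
    · rw [hF x hx, sub_self, zero_mul]

theorem MaxP.watanabe (h : MaxP B P b) (hab : P ≤ cen P) (hu : u ∈ P) (hT : nrm P ⊓ stab b ≤ cen1 u)
    {f : Bl M (cen1 u)} (hf : Sub (zpowers u) f.E P b) :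
    blockRank p B.1 = blockRank p f.1 ∧ Nat.card B.1 = Nat.card f.1 := by
  classical
  refine ⟨by rw [← h.bp.sbl_eq hf, watanabe_aux _ (Nat.lt_succ_self _) B P b u h hab hu hT], ?_⟩
  have hQ := zpowers_le.2 hu
  have hP : P ≤ cen1 u := cen_zpowers u ▸ le_cen_of_comm hab hQ
  obtain ⟨b', e, h'⟩ := h.comap_cen (le_cen_of_comm hab hQ) (cen_zpowers u).symm hf
  obtain ⟨X, hX, -⟩ := h'.bp.exists_reps (one_mem _)
  have fc : ∀ x y : cen1 u, x.1 ∈ P → (FC (P.subgroupOf (cen1 u)) b' x y ↔ FC P b x y) := fun x y hx => by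
    rw [h'.fc_iff_of_comm (subgroupOf_le_cen hab _) hx, h.fc_iff_of_comm hab hx]
    exact ⟨fun ⟨n, hn, e'⟩ => ⟨n, (mem_stab_sub hP e).1 hn, congrArg Subtype.val e'⟩,
      fun ⟨n, hn, e'⟩ => ⟨⟨n, hT hn⟩, (mem_stab_sub hP e).2 hn, Subtype.ext e'⟩⟩
  have hX' : Reps P b (X.map (Function.Embedding.subtype _)) := by
    refine ⟨fun x hx => ?_, fun v hv => ?_⟩
    · obtain ⟨y, hy, rfl⟩ := Finset.mem_map.1 hx
      exact hX.mem y hy
    · obtain ⟨x, ⟨h1, h2⟩, h3⟩ := hX.uniq ⟨v, hP hv⟩ hv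
      refine ⟨x, ⟨Finset.mem_map_of_mem _ h1, (fc _ _ hv).1 h2⟩, fun y ⟨hy, hy'⟩ => ?_⟩
      obtain ⟨y, hy2, rfl⟩ := Finset.mem_map.1 hy
      exact congrArg Subtype.val (h3 y ⟨hy2, (fc _ _ hv).2 hy'⟩)
  rw [h.card_eq_sum hX', h'.card_eq_sum hX, Finset.sum_map]
  refine Finset.sum_congr rfl fun x hx => ?_
  have hx : x.1 ∈ P := hX.mem x hx
  rw [rank_sbl_sub h.bp hab hQ (cen_zpowers u).symm h'.bp e hx, sup_comm, lq_step h hab (zpowers_le.2 hx) hu
    (inf_le_right.trans hT) (watanabe_aux _ (Nat.lt_succ_self _))]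
  exact rank_sbl_eq_lq h.bp hx

end H9
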